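import Cfsg.Agent.H544.MillerC

/-!
# M. Hall's theorem on 4-transitive groups with four-point stabilizers of odd order

Part A: basic facts on the involutions.
-/

set_option autoImplicit false

namespace Cfsg.Agent.H544.HallA

open Equiv Equiv.Perm MulAction Cfsg.Agent.H544.MillerC

variable {α : Type*} [Fintype α] [DecidableEq α]

/-- Four distinct points. -/
def D4 (a b c d : α) : Prop := a ≠ b ∧ a ≠ c ∧ a ≠ d ∧ b ≠ c ∧ b ≠ d ∧ c ≠ d

/-- The embedding given by four distinct points. -/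
def emb4 {a b c d : α} (h : D4 a b c d) : Fin 4 ↪ α where
  toFun := ![a, b, c, d]
  inj' := by
    obtain ⟨h1, h2, h3, h4, h5, h6⟩ := h
    intro i j hij
    fin_cases i <;> fin_cases j <;>
      simp_all [Matrix.cons_val_zero, Matrix.cons_val_one]

/-- The hypotheses: `G` is 4-transitive and the stabilizer of four points has odd order. -/
structure Hyp (G : Subgroup (Perm α)) : Prop where
  tr : IsMultiplyPretransitive G α 4
  odd : ∀ {a b c d : α}, D4 a b c d → ∀ L : Subgroup (Perm α), L ≤ G →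
    (∀ g ∈ L, g a = a ∧ g b = b ∧ g c = c ∧ g d = d) → Odd (Nat.card L)

theorem Hyp.mk' (G : Subgroup (Perm α)) (hG : IsMultiplyPretransitive G α 4) (x : Fin 4 ↪ α)
    (hodd : Odd (Nat.card (stabilizer G x))) : Hyp G := by
  refine ⟨hG, ?_⟩
  intro a b c d hD L hL hfix
  obtain ⟨g, hg, hgx⟩ := exists_elem hG x (emb4 hD)
  -- `g⁻¹ L g` is contained in the stabilizer of `x`
  let f : L → stabilizer G x := fun l => ⟨⟨g⁻¹ * l * g, mul_mem (mul_mem (inv_mem hg) (hL l.2)) hg⟩, by
    rw [mem_stabilizer_iff]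
    apply DFunLike.ext
    intro i
    show (g⁻¹ * (l : Perm α) * g) (x i) = x i
    have h1 : (l : Perm α) (emb4 hD i) = emb4 hD i := by
      obtain ⟨h1, h2, h3, h4⟩ := hfix l l.2
      fin_cases i
      · exact h1
      · exact h2
      · exact h3
      · exact h4
    rw [Perm.mul_apply, Perm.mul_apply, hgx i, h1, ← hgx i]
    simp⟩
  let F : L →* stabilizer G x :=
    { toFun := f
      map_one' := by
        apply Subtype.ext; apply Subtype.ext
        show g⁻¹ * 1 * g = 1
        simp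
      map_mul' := by
        intro l l'
        apply Subtype.ext; apply Subtype.ext
        show g⁻¹ * (l * l' : Perm α) * g = (g⁻¹ * l * g) * (g⁻¹ * l' * g)
        group }
  have hF : Function.Injective F := by
    intro l l' h
    have h1 : g⁻¹ * (l : Perm α) * g = g⁻¹ * (l' : Perm α) * g :=
      congrArg (fun z : stabilizer G x => ((z : G) : Perm α)) h
    apply Subtype.ext
    simpa using h1
  have h2 : Nat.card L ∣ Nat.card (stabilizer G x) := Subgroup.card_dvd_of_injective F hF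
  exact Odd.of_dvd_nat hodd h2

theorem Hyp.elem4 {G : Subgroup (Perm α)} (H : Hyp G) {a b c d a' b' c' d' : α}
    (h : D4 a b c d) (h' : D4 a' b' c' d') :
    ∃ g ∈ G, g a = a' ∧ g b = b' ∧ g c = c' ∧ g d = d' := by
  obtain ⟨g, hg, hgx⟩ := exists_elem H.tr (emb4 h) (emb4 h')
  exact ⟨g, hg, hgx 0, hgx 1, hgx 2, hgx 3⟩

/-- An element fixing four points has odd order. -/
theorem Hyp.odd_elem {G : Subgroup (Perm α)} (H : Hyp G) {a b c d : α} (h : D4 a b c d)
    {g : Perm α} (hg : g ∈ G) (ha : g a = a) (hb : g b = b) (hc : g c = c) (hd : g d = d) :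
    Odd (orderOf g) := by
  rw [← Nat.card_zpowers]
  apply H.odd h
  · rw [Subgroup.zpowers_le]; exact hg
  · rintro _ ⟨k, rfl⟩
    exact ⟨Function.IsFixedPt.perm_zpow ha k, Function.IsFixedPt.perm_zpow hb k,
      Function.IsFixedPt.perm_zpow hc k, Function.IsFixedPt.perm_zpow hd k⟩

/-- Two involutions whose product has odd order are conjugate in the group they generate. -/
theorem conj_inv {s t : Perm α} (hs : s * s = 1) (ht : t * t = 1) (h : Odd (orderOf (t * s))) :
    ∃ j : ℕ, (t * s) ^ j * s * ((t * s) ^ j)⁻¹ = t := by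
  obtain ⟨k, hk⟩ := h
  refine ⟨k + 1, ?_⟩
  have hsi : s⁻¹ = s := inv_eq_of_mul_eq_one_right hs
  have hti : t⁻¹ = t := inv_eq_of_mul_eq_one_right ht
  have h1 : ∀ j : ℕ, s * ((t * s) ^ j)⁻¹ = (t * s) ^ j * s := by
    intro j
    induction j with
    | zero => simp
    | succ j ih =>
      rw [pow_succ, mul_inv_rev, mul_inv_rev, hsi, hti]
      calc s * (s * t * ((t * s) ^ j)⁻¹) = (s * s) * t * ((t * s) ^ j)⁻¹ := by group
        _ = t * (s * s) * ((t * s) ^ j)⁻¹ := by rw [hs]; group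
        _ = t * s * (s * ((t * s) ^ j)⁻¹) := by group
        _ = t * s * ((t * s) ^ j * s) := by rw [ih]
        _ = (t * s) ^ j * (t * s) * s := by
            rw [← mul_assoc, ← pow_succ', pow_succ]
  rw [mul_assoc, h1, ← mul_assoc, ← pow_add]
  have h2 : (t * s) ^ (k + 1 + (k + 1)) = t * s := by
    have : k + 1 + (k + 1) = orderOf (t * s) + 1 := by omega
    rw [this, pow_succ, pow_orderOf_eq_one, one_mul]
  rw [h2, mul_assoc, hs, mul_one]

/-- Powers with odd exponents. -/
theorem pow_odd_apply {y : Perm α} {p q : α} (hp : y p = q) (hq : y q = p) (k : ℕ) :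
    (y ^ (2 * k + 1)) p = q := by
  have h2 : ∀ k : ℕ, (y ^ (2 * k)) p = p := by
    intro k
    induction k with
    | zero => simp
    | succ k ih =>
      rw [show 2 * (k + 1) = 2 * k + 2 by ring, pow_add, Perm.mul_apply, pow_two, Perm.mul_apply,
        hp, hq, ih]
  rw [pow_succ', Perm.mul_apply, h2, hp]

/-- Extract an involution from an element whose square has odd order. -/
theorem exists_pow_inv {y : Perm α} (h : Odd (orderOf (y * y))) :
    ∃ k : ℕ, y ^ (2 * k + 1) * y ^ (2 * k + 1) = 1 := by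
  obtain ⟨k, hk⟩ := h
  refine ⟨k, ?_⟩
  rw [← pow_add, ← hk, ← two_mul, pow_mul, pow_two, pow_orderOf_eq_one]

/-- Transitivity of centralizers of involutions: general form. -/
theorem Hyp.trans4 {G : Subgroup (Perm α)} (H : Hyp G) {a : Perm α} (ha : a ∈ G) (haa : a * a = 1)
    {p q : Fin 4 → α} (hp : D4 (p 0) (p 1) (p 2) (p 3)) (hq : D4 (q 0) (q 1) (q 2) (q 3))
    (τ : Fin 4 → Fin 4) (hap : ∀ i, a (p i) = p (τ i)) (haq : ∀ i, a (q i) = q (τ i)) :
    ∃ g ∈ G, g * a = a * g ∧ ∀ i, g (p i) = q i := by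
  obtain ⟨g, hg, h0, h1, h2, h3⟩ := H.elem4 hp hq
  have hgp : ∀ i, g (p i) = q i := by
    intro i; fin_cases i
    · exact h0
    · exact h1
    · exact h2
    · exact h3
  set b : Perm α := g * a * g⁻¹ with hb
  have hbb : b * b = 1 := by
    rw [hb]
    calc g * a * g⁻¹ * (g * a * g⁻¹) = g * (a * a) * g⁻¹ := by group
      _ = 1 := by rw [haa]; group
  have hbG : b ∈ G := mul_mem (mul_mem hg ha) (inv_mem hg)
  have hginv : ∀ i, g⁻¹ (q i) = p i := by
    intro i; rw [← hgp i]; simp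
  have hbq : ∀ i, b (q i) = a (q i) := by
    intro i
    rw [hb, Perm.mul_apply, Perm.mul_apply, hginv, hap, hgp, haq]
  have habq : ∀ i, (a * b) (q i) = q i := by
    intro i
    rw [Perm.mul_apply, hbq, ← Perm.mul_apply, haa]; rfl
  have hodd : Odd (orderOf (a * b)) :=
    H.odd_elem hq (mul_mem ha hbG) (habq 0) (habq 1) (habq 2) (habq 3)
  obtain ⟨j, hj⟩ := conj_inv hbb haa hodd
  set z : Perm α := (a * b) ^ j with hz
  have hzG : z ∈ G := pow_mem (mul_mem ha hbG) j
  have hzq : ∀ i, z (q i) = q i := fun i => Function.IsFixedPt.perm_pow (habq i) j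
  refine ⟨z * g, mul_mem hzG hg, ?_, ?_⟩
  · have h4 : (z * g) * a * (z * g)⁻¹ = a := by
      calc (z * g) * a * (z * g)⁻¹ = z * b * z⁻¹ := by rw [hb]; group
        _ = a := hj
    calc z * g * a = (z * g) * a * (z * g)⁻¹ * (z * g) := by group
      _ = a * (z * g) := by rw [h4]
  · intro i
    rw [Perm.mul_apply, hgp, hzq]

/-- Two 2-cycles to two 2-cycles. -/
theorem Hyp.trans22 {G : Subgroup (Perm α)} (H : Hyp G) {a : Perm α} (ha : a ∈ G)
    (haa : a * a = 1) {p q p' q' : α} (hp : a p ≠ p) (hq : a q ≠ q) (hqp : q ≠ p)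
    (hqp2 : q ≠ a p) (hp' : a p' ≠ p') (hq' : a q' ≠ q') (hqp' : q' ≠ p') (hqp2' : q' ≠ a p') :
    ∃ g ∈ G, g * a = a * g ∧ g p = p' ∧ g q = q' := by
  have haa' : ∀ x, a (a x) = x := by
    intro x; rw [← Perm.mul_apply, haa]; rfl
  have key : ∀ {p q : α}, a p ≠ p → a q ≠ q → q ≠ p → q ≠ a p → D4 p (a p) q (a q) := by
    intro p q hp hq hqp hqp2
    refine ⟨hp.symm, hqp.symm, ?_, hqp2.symm, ?_, hq.symm⟩
    · intro h
      apply hqp2
      rw [h, haa']
    · intro h
      exact hqp (a.injective h.symm)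
  have h1 := key hp hq hqp hqp2
  have h2 := key hp' hq' hqp' hqp2'
  obtain ⟨g, hg, hga, hgp⟩ := H.trans4 ha haa (p := ![p, a p, q, a q]) (q := ![p', a p', q', a q'])
    h1 h2 ![1, 0, 3, 2]
    (by intro i; fin_cases i <;> simp [haa'])
    (by intro i; fin_cases i <;> simp [haa'])
  exact ⟨g, hg, hga, hgp 0, hgp 2⟩

/-- Two fixed points and a 2-cycle to two fixed points and a 2-cycle. -/
theorem Hyp.trans112 {G : Subgroup (Perm α)} (H : Hyp G) {a : Perm α} (ha : a ∈ G)
    (haa : a * a = 1) {e f p e' f' p' : α} (he : a e = e) (hf : a f = f) (hef : e ≠ f)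
    (hp : a p ≠ p) (he' : a e' = e') (hf' : a f' = f') (hef' : e' ≠ f') (hp' : a p' ≠ p') :
    ∃ g ∈ G, g * a = a * g ∧ g e = e' ∧ g f = f' ∧ g p = p' := by
  have haa' : ∀ x, a (a x) = x := by
    intro x; rw [← Perm.mul_apply, haa]; rfl
  have key : ∀ {e f p : α}, a e = e → a f = f → e ≠ f → a p ≠ p → D4 e f p (a p) := by
    intro e f p he hf hef hp
    refine ⟨hef, ?_, ?_, ?_, ?_, hp.symm⟩
    · rintro rfl; exact hp he
    · intro h
      apply hp
      have : a (a p) = a e := by rw [h]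
      rw [haa', he, h] at this
      exact this.symm
    · rintro rfl; exact hp hf
    · intro h
      apply hp
      have : a (a p) = a f := by rw [h]
      rw [haa', hf, h] at this
      exact this.symm
  obtain ⟨g, hg, hga, hgp⟩ := H.trans4 ha haa (p := ![e, f, p, a p]) (q := ![e', f', p', a p'])
    (key he hf hef hp) (key he' hf' hef' hp') ![0, 1, 3, 2]
    (by intro i; fin_cases i <;> simp [haa', he, hf])
    (by intro i; fin_cases i <;> simp [haa', he', hf'])
  exact ⟨g, hg, hga, hgp 0, hgp 1, hgp 2⟩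

/-- An involution moves all but at most three points. -/
theorem Hyp.support_ge {G : Subgroup (Perm α)} (H : Hyp G) {a : Perm α} (ha : a ∈ G)
    (haa : a * a = 1) (ha1 : a ≠ 1) : Fintype.card α ≤ a.support.card + 3 := by
  by_contra hlt
  push Not at hlt
  have h1 : 4 ≤ (a.supportᶜ).card := by
    rw [Finset.card_compl]; omega
  obtain ⟨t, ht, htc⟩ := Finset.exists_subset_card_eq h1
  obtain ⟨w, x, y, z, h⟩ : ∃ w x y z : α, D4 w x y z ∧ t = {w, x, y, z} := by
    obtain ⟨w, x, y, z, h1, h2, h3, h4, h5, h6, h7⟩ := Finset.card_eq_four.mp htc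
    exact ⟨w, x, y, z, ⟨h1, h2, h3, h4, h5, h6⟩, h7⟩
  obtain ⟨hD, rfl⟩ := h
  have hfix : ∀ v ∈ ({w, x, y, z} : Finset α), a v = v := by
    intro v hv
    have := ht hv
    rw [Finset.mem_compl, Equiv.Perm.notMem_support] at this
    exact this
  have hodd := H.odd_elem hD ha (hfix w (by simp)) (hfix x (by simp)) (hfix y (by simp))
    (hfix z (by simp))
  have ho : orderOf a = 2 := orderOf_eq_prime (by rw [pow_two, haa]) ha1
  rw [ho] at hodd
  exact absurd hodd (by decide)

/-- Existence of an involution `(p q)(r s)…`. -/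
theorem Hyp.exists_inv {G : Subgroup (Perm α)} (H : Hyp G) {p q r s : α} (h : D4 p q r s) :
    ∃ a ∈ G, a * a = 1 ∧ a p = q ∧ a q = p ∧ a r = s ∧ a s = r := by
  obtain ⟨h1, h2, h3, h4, h5, h6⟩ := h
  obtain ⟨y, hy, e1, e2, e3, e4⟩ := H.elem4 (a := p) (b := q) (c := r) (d := s)
    (a' := q) (b' := p) (c' := s) (d' := r) ⟨h1, h2, h3, h4, h5, h6⟩
    ⟨h1.symm, h5, h4, h3, h2, h6.symm⟩
  have hodd : Odd (orderOf (y * y)) := by
    apply H.odd_elem (a := p) (b := q) (c := r) (d := s) ⟨h1, h2, h3, h4, h5, h6⟩ (mul_mem hy hy)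
    · rw [Perm.mul_apply, e1, e2]
    · rw [Perm.mul_apply, e2, e1]
    · rw [Perm.mul_apply, e3, e4]
    · rw [Perm.mul_apply, e4, e3]
  obtain ⟨k, hk⟩ := exists_pow_inv hodd
  exact ⟨y ^ (2 * k + 1), pow_mem hy _, hk, pow_odd_apply e1 e2 k, pow_odd_apply e2 e1 k,
    pow_odd_apply e3 e4 k, pow_odd_apply e4 e3 k⟩

/-- Existence of an involution `(p)(q)(r s)…` commuting with `a = (p q)(r s)…`. -/
theorem Hyp.exists_u {G : Subgroup (Perm α)} (H : Hyp G) {a : Perm α} (ha : a ∈ G)
    (haa : a * a = 1) {p r : α} (hp : a p ≠ p) (hr : a r ≠ r) (hrp : r ≠ p) (hrp2 : r ≠ a p) :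
    ∃ u ∈ G, u * u = 1 ∧ u * a = a * u ∧ u p = p ∧ u (a p) = a p ∧ u r = a r ∧ u (a r) = r := by
  have haa' : ∀ x, a (a x) = x := by
    intro x; rw [← Perm.mul_apply, haa]; rfl
  have har : a (a r) ≠ a r := fun h => hr (a.injective h)
  have harp : a r ≠ p := by
    intro h; apply hrp2; rw [← h, haa']
  have harp2 : a r ≠ a p := fun h => hrp (a.injective h)
  obtain ⟨y, hy, hya, e1, e2⟩ := H.trans22 ha haa hp hr hrp hrp2 hp har harp harp2
  have hyc : ∀ x, y (a x) = a (y x) := by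
    intro x; rw [← Perm.mul_apply, hya]; rfl
  have e3 : y (a p) = a p := by rw [hyc, e1]
  have e4 : y (a r) = r := by rw [hyc, e2, haa']
  have hD : D4 p (a p) r (a r) :=
    ⟨hp.symm, hrp.symm, harp.symm, hrp2.symm, harp2.symm, hr.symm⟩
  have hodd : Odd (orderOf (y * y)) := by
    apply H.odd_elem hD (mul_mem hy hy)
    · rw [Perm.mul_apply, e1, e1]
    · rw [Perm.mul_apply, e3, e3]
    · rw [Perm.mul_apply, e2, e4]
    · rw [Perm.mul_apply, e4, e2]
  obtain ⟨k, hk⟩ := exists_pow_inv hodd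
  refine ⟨y ^ (2 * k + 1), pow_mem hy _, hk, ?_, pow_odd_apply e1 e1 k, pow_odd_apply e3 e3 k,
    pow_odd_apply e2 e4 k, pow_odd_apply e4 e2 k⟩
  exact ((show Commute y a from hya).pow_left _).eq

end Cfsg.Agent.H544.HallA
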