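import Cfsg.Agent.H544.HallA

/-!
# M. Hall's theorem on 4-transitive groups with four-point stabilizers of odd order

Part B: counting.
-/

set_option autoImplicit false

namespace Cfsg.Agent.H544.HallB

open Equiv Equiv.Perm MulAction Cfsg.Agent.H544.MillerC Cfsg.Agent.H544.HallA

variable {α : Type*} [Fintype α] [DecidableEq α]

/-- The restriction homomorphism to an invariant set. -/
def restr (L : Subgroup (Perm α)) (Y : Set α) (h : ∀ g ∈ L, ∀ x, x ∈ Y ↔ g x ∈ Y) :
    L →* Perm Y where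
  toFun g := (g : Perm α).subtypePerm (fun x => (h g g.2 x).symm)
  map_one' := by ext x; rfl
  map_mul' a b := by ext x; rfl

theorem restr_apply (L : Subgroup (Perm α)) (Y : Set α) (h : ∀ g ∈ L, ∀ x, x ∈ Y ↔ g x ∈ Y)
    (g : L) (x : Y) : (restr L Y h g x : α) = (g : Perm α) x := rfl

/-- For `n ≥ 8` the group does not contain the alternating group. -/
theorem not_alt {G : Subgroup (Perm α)} (H : Hyp G) (h8 : 8 ≤ Fintype.card α) :
    ¬ alternatingGroup α ≤ G := by
  intro hle
  obtain ⟨t, htc⟩ := Finset.exists_subset_card_eq (s := (Finset.univ : Finset α)) (n := 4)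
    (by rw [Finset.card_univ]; omega)
  obtain ⟨w, x, y, z, h1, h2, h3, h4, h5, h6, h7⟩ := Finset.card_eq_four.mp htc.2
  set σ : Perm α := swap w x * swap y z with hσ
  have hmem : σ ∈ alternatingGroup α := by
    rw [Equiv.Perm.mem_alternatingGroup, hσ, map_mul, sign_swap h1, sign_swap h6]; rfl
  have hcomm : swap w x * swap y z = swap y z * swap w x := by
    apply Disjoint.commute
    rw [Equiv.Perm.disjoint_iff_disjoint_support, support_swap h1, support_swap h6]
    simp [h2, h3, h4, h5, h2.symm, h3.symm, h4.symm, h5.symm]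
  have hσσ : σ * σ = 1 := by
    rw [hσ]
    calc swap w x * swap y z * (swap w x * swap y z)
        = swap w x * swap y z * (swap y z * swap w x) := by rw [hcomm]
      _ = swap w x * (swap y z * swap y z) * swap w x := by group
      _ = 1 := by rw [swap_mul_self, mul_one, swap_mul_self]
  have hσ1 : σ ≠ 1 := by
    intro h
    have : σ w = w := by rw [h]; rfl
    rw [hσ, Perm.mul_apply, swap_apply_of_ne_of_ne h2 h3, swap_apply_left] at this
    exact h1 this.symm
  have h9 := H.support_ge (hle hmem) hσσ hσ1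
  have h10 : σ.support.card ≤ 4 := by
    calc _ ≤ ((swap w x).support ⊔ (swap y z).support).card :=
          Finset.card_le_card (support_mul_le _ _)
      _ ≤ (swap w x).support.card + (swap y z).support.card := Finset.card_union_le _ _
      _ = 4 := by rw [card_support_swap h1, card_support_swap h6]
  omega

/-- Nonidentity elements move at least six points. -/
theorem six_le {G : Subgroup (Perm α)} (H : Hyp G) (h8 : 8 ≤ Fintype.card α) {g : Perm α}
    (hg : g ∈ G) (hg1 : g ≠ 1) : 6 ≤ g.support.card := by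
  by_contra hlt
  push Not at hlt
  exact not_alt H h8 (Cfsg.Agent.S0711.result G (k := 4) (by omega) (by omega) H.tr g hg hg1
    (by omega)).2

/-- An involution has a second 2-cycle. -/
theorem exists_second {G : Subgroup (Perm α)} (H : Hyp G) (h8 : 8 ≤ Fintype.card α) {a : Perm α}
    (ha : a ∈ G) (haa : a * a = 1) (ha1 : a ≠ 1) :
    ∃ p q, a p ≠ p ∧ a q ≠ q ∧ q ≠ p ∧ q ≠ a p := by
  have h6 := six_le H h8 ha ha1
  obtain ⟨p, hp⟩ : a.support.Nonempty := by
    rw [← Finset.card_pos]; omega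
  obtain ⟨q, hq⟩ : (a.support \ {p, a p}).Nonempty := by
    rw [← Finset.card_pos]
    have h1 := Finset.le_card_sdiff ({p, a p} : Finset α) a.support
    have h2 := Finset.card_le_two (a := p) (b := a p)
    omega
  rw [Finset.mem_sdiff, Finset.mem_insert, Finset.mem_singleton, not_or] at hq
  exact ⟨p, q, Equiv.Perm.mem_support.mp hp, Equiv.Perm.mem_support.mp hq.1, hq.2.1, hq.2.2⟩

theorem d4_of {a : Perm α} (haa : a * a = 1) {p q : α} (hp : a p ≠ p) (hq : a q ≠ q)
    (hqp : q ≠ p) (hqp2 : q ≠ a p) : D4 p (a p) q (a q) := by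
  have haa' : ∀ x, a (a x) = x := by
    intro x; rw [← Perm.mul_apply, haa]; rfl
  refine ⟨hp.symm, hqp.symm, ?_, hqp2.symm, ?_, hq.symm⟩
  · intro h
    apply hqp2
    rw [h, haa']
  · intro h
    exact hqp (a.injective h.symm)

/-- All involutions are conjugate, in a controlled way. -/
theorem conj_all {G : Subgroup (Perm α)} (H : Hyp G) (h8 : 8 ≤ Fintype.card α) {s t : Perm α}
    (hs : s ∈ G) (hss : s * s = 1) (hs1 : s ≠ 1) (ht : t ∈ G) (htt : t * t = 1) (ht1 : t ≠ 1) :
    ∃ g ∈ G, g * s * g⁻¹ = t := by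
  obtain ⟨p, q, hp, hq, hqp, hqp2⟩ := exists_second H h8 hs hss hs1
  obtain ⟨p', q', hp', hq', hqp', hqp2'⟩ := exists_second H h8 ht htt ht1
  have hD := d4_of hss hp hq hqp hqp2
  have hD' := d4_of htt hp' hq' hqp' hqp2'
  obtain ⟨g, hg, e1, e2, e3, e4⟩ := H.elem4 hD hD'
  have hss' : ∀ x, s (s x) = x := by
    intro x; rw [← Perm.mul_apply, hss]; rfl
  have htt' : ∀ x, t (t x) = x := by
    intro x; rw [← Perm.mul_apply, htt]; rfl
  set b : Perm α := g * s * g⁻¹ with hb
  have hbb : b * b = 1 := by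
    rw [hb]
    calc g * s * g⁻¹ * (g * s * g⁻¹) = g * (s * s) * g⁻¹ := by group
      _ = 1 := by rw [hss]; group
  have hbG : b ∈ G := mul_mem (mul_mem hg hs) (inv_mem hg)
  have hbg : ∀ x, b (g x) = g (s x) := by
    intro x; rw [hb]; simp
  have f1 : b p' = t p' := by rw [← e1, hbg, e2, e1]
  have f2 : b (t p') = p' := by rw [← e2, hbg, hss', e1]
  have f3 : b q' = t q' := by rw [← e3, hbg, e4, e3]
  have f4 : b (t q') = q' := by rw [← e4, hbg, hss', e3]
  have hodd : Odd (orderOf (t * b)) := by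
    apply H.odd_elem hD' (mul_mem ht hbG)
    · rw [Perm.mul_apply, f1, htt']
    · rw [Perm.mul_apply, f2]
    · rw [Perm.mul_apply, f3, htt']
    · rw [Perm.mul_apply, f4]
  obtain ⟨j, hj⟩ := conj_inv hbb htt hodd
  have hzG : (t * b) ^ j ∈ G := pow_mem (mul_mem ht hbG) j
  generalize (t * b) ^ j = z at hj hzG
  refine ⟨z * g, mul_mem hzG hg, ?_⟩
  calc z * g * s * (z * g)⁻¹ = z * (g * s * g⁻¹) * z⁻¹ := by group
    _ = t := hj

theorem card_support_eq {G : Subgroup (Perm α)} (H : Hyp G) (h8 : 8 ≤ Fintype.card α)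
    {s t : Perm α} (hs : s ∈ G) (hss : s * s = 1) (hs1 : s ≠ 1) (ht : t ∈ G) (htt : t * t = 1)
    (ht1 : t ≠ 1) : s.support.card = t.support.card := by
  obtain ⟨g, _, rfl⟩ := conj_all H h8 hs hss hs1 ht htt ht1
  rw [Equiv.Perm.support_conj, Finset.card_map]

/-- The basic configuration. -/
structure Ctx (G : Subgroup (Perm α)) (a u : Perm α) (p r : α) : Prop where
  H : Hyp G
  h8 : 8 ≤ Fintype.card α
  ha : a ∈ G
  haa : a * a = 1
  hu : u ∈ G
  huu : u * u = 1
  hua : u * a = a * u
  hp : a p ≠ p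
  hr : a r ≠ r
  hrp : r ≠ p
  hrp2 : r ≠ a p
  up : u p = p
  uap : u (a p) = a p
  ur : u r = a r
  uar : u (a r) = r

theorem exists_ctx {G : Subgroup (Perm α)} (H : Hyp G) (h8 : 8 ≤ Fintype.card α) :
    ∃ a u p r, Ctx G a u p r := by
  obtain ⟨t, htc⟩ := Finset.exists_subset_card_eq (s := (Finset.univ : Finset α)) (n := 4)
    (by rw [Finset.card_univ]; omega)
  obtain ⟨w, x, y, z, h1, h2, h3, h4, h5, h6, h7⟩ := Finset.card_eq_four.mp htc.2
  obtain ⟨a, ha, haa, e1, e2, e3, e4⟩ := H.exists_inv (p := w) (q := x) (r := y) (s := z)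
    ⟨h1, h2, h3, h4, h5, h6⟩
  have hp : a w ≠ w := by rw [e1]; exact h1.symm
  have hr : a y ≠ y := by rw [e3]; exact h6.symm
  have hrp2 : y ≠ a w := by rw [e1]; exact h4.symm
  obtain ⟨u, hu, huu, hua, up, uap, ur, uar⟩ := H.exists_u ha haa hp hr h2.symm hrp2
  exact ⟨a, u, w, y, H, h8, ha, haa, hu, huu, hua, hp, hr, h2.symm, hrp2, up, uap, ur, uar⟩

namespace Ctx

variable {G : Subgroup (Perm α)} {a u : Perm α} {p r : α}

theorem ha1 (C : Ctx G a u p r) : a ≠ 1 := by
  rintro rfl
  exact C.hp rfl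

theorem hu1 (C : Ctx G a u p r) : u ≠ 1 := by
  rintro rfl
  exact C.hr C.ur.symm

theorem aa (C : Ctx G a u p r) (x : α) : a (a x) = x := by
  rw [← Perm.mul_apply, C.haa]; rfl

theorem uu (C : Ctx G a u p r) (x : α) : u (u x) = x := by
  rw [← Perm.mul_apply, C.huu]; rfl

theorem ua (C : Ctx G a u p r) (x : α) : u (a x) = a (u x) := by
  rw [← Perm.mul_apply, C.hua]; rfl

theorem even (C : Ctx G a u p r) : Even a.support.card :=
  even_iff_two_dvd.mpr (Equiv.Perm.two_dvd_card_support (by rw [pow_two, C.haa]))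

theorem card_le (C : Ctx G a u p r) : a.support.card + 2 ≤ Fintype.card α := by
  rw [card_support_eq C.H C.h8 C.ha C.haa C.ha1 C.hu C.huu C.hu1]
  have h1 : ({p, a p} : Finset α) ⊆ u.supportᶜ := by
    intro x hx
    rw [Finset.mem_compl, Equiv.Perm.notMem_support]
    rw [Finset.mem_insert, Finset.mem_singleton] at hx
    rcases hx with rfl | rfl
    · exact C.up
    · exact C.uap
  have h2 := Finset.card_le_card h1
  rw [Finset.card_pair C.hp.symm, Finset.card_compl] at h2
  have := Finset.card_le_univ u.support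
  omega

theorem card_ge (C : Ctx G a u p r) : Fintype.card α ≤ a.support.card + 3 :=
  C.H.support_ge C.ha C.haa C.ha1

/-- The centralizer of `a` in the stabilizer of `p`. -/
def D (_ : Ctx G a u p r) : Subgroup (Perm α) where
  carrier := {g | g ∈ G ∧ g * a = a * g ∧ g p = p}
  mul_mem' := by
    rintro g h ⟨h1, h2, h3⟩ ⟨h4, h5, h6⟩
    refine ⟨mul_mem h1 h4, ?_, ?_⟩
    · rw [mul_assoc, h5, ← mul_assoc, h2, mul_assoc]
    · rw [Perm.mul_apply, h6, h3]
  one_mem' := ⟨one_mem _, by simp, rfl⟩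
  inv_mem' := by
    rintro g ⟨h1, h2, h3⟩
    refine ⟨inv_mem h1, ?_, ?_⟩
    · calc g⁻¹ * a = g⁻¹ * (a * g) * g⁻¹ := by group
        _ = g⁻¹ * (g * a) * g⁻¹ := by rw [h2]
        _ = a * g⁻¹ := by group
    · rw [Perm.inv_eq_iff_eq, h3]

theorem mem_D (C : Ctx G a u p r) {g : Perm α} : g ∈ C.D ↔ g ∈ G ∧ g * a = a * g ∧ g p = p :=
  Iff.rfl

theorem D_comm (C : Ctx G a u p r) {g : Perm α} (hg : g ∈ C.D) (x : α) : g (a x) = a (g x) := by
  rw [← Perm.mul_apply, hg.2.1]; rfl

theorem D_ap (C : Ctx G a u p r) {g : Perm α} (hg : g ∈ C.D) : g (a p) = a p := by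
  rw [C.D_comm hg, hg.2.2]

/-- The centralizer of `a` in the stabilizer of `p, a p, r, a r`. -/
def Dr (C : Ctx G a u p r) : Subgroup (Perm α) where
  carrier := {g | g ∈ C.D ∧ g r = r}
  mul_mem' := by
    rintro g h ⟨h1, h2⟩ ⟨h3, h4⟩
    exact ⟨mul_mem h1 h3, by rw [Perm.mul_apply, h4, h2]⟩
  one_mem' := ⟨one_mem _, rfl⟩
  inv_mem' := by
    rintro g ⟨h1, h2⟩
    exact ⟨inv_mem h1, by rw [Perm.inv_eq_iff_eq, h2]⟩

theorem d4 (C : Ctx G a u p r) : D4 p (a p) r (a r) := d4_of C.haa C.hp C.hr C.hrp C.hrp2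

theorem Dr_odd (C : Ctx G a u p r) : Odd (Nat.card C.Dr) := by
  apply C.H.odd C.d4 C.Dr (fun g hg => hg.1.1)
  intro g hg
  exact ⟨hg.1.2.2, C.D_ap hg.1, hg.2, by rw [C.D_comm hg.1, hg.2]⟩

theorem card_D (C : Ctx G a u p r) :
    Nat.card C.D = (a.support.card - 2) * Nat.card C.Dr := by
  have h1 : MulAction.orbit C.D r = ((a.support \ {p, a p} : Finset α) : Set α) := by
    ext y
    rw [Finset.mem_coe, Finset.mem_sdiff, Finset.mem_insert, Finset.mem_singleton, not_or,
      Equiv.Perm.mem_support]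
    constructor
    · rintro ⟨⟨g, hg⟩, rfl⟩
      show a (g r) ≠ g r ∧ g r ≠ p ∧ g r ≠ a p
      refine ⟨?_, ?_, ?_⟩
      · rw [← C.D_comm hg]
        exact fun h => C.hr (g.injective h)
      · intro h
        rw [← hg.2.2] at h
        exact C.hrp (g.injective h)
      · intro h
        rw [← C.D_ap hg] at h
        exact C.hrp2 (g.injective h)
    · rintro ⟨h1, h2, h3⟩
      obtain ⟨g, hg, hga, e1, e2⟩ := C.H.trans22 C.ha C.haa C.hp C.hr C.hrp C.hrp2 C.hp h1 h2 h3
      exact ⟨⟨g, hg, hga, e1⟩, e2⟩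
  have h2 : Nat.card (MulAction.orbit C.D r) = a.support.card - 2 := by
    rw [h1, Nat.card_coe_set_eq, Set.ncard_coe_finset, Finset.card_sdiff_of_subset,
      Finset.card_pair C.hp.symm]
    intro x hx
    rw [Finset.mem_insert, Finset.mem_singleton] at hx
    rw [Equiv.Perm.mem_support]
    rcases hx with rfl | rfl
    · exact C.hp
    · exact fun h => C.hp (a.injective h)
  have h3 : Nat.card (stabilizer C.D r) = Nat.card C.Dr := by
    apply Nat.card_congr
    exact
      { toFun := fun g => ⟨g.1.1, g.1.2, g.2⟩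
        invFun := fun g => ⟨⟨g.1, g.2.1⟩, g.2.2⟩
        left_inv := fun _ => rfl
        right_inv := fun _ => rfl }
  have h4 : Nat.card (MulAction.orbit C.D r) * Nat.card (stabilizer C.D r) = Nat.card C.D := by
    rw [← Nat.card_prod]
    exact Nat.card_congr (MulAction.orbitProdStabilizerEquivGroup C.D r)
  rw [← h4, h2, h3]

theorem not_four_dvd (C : Ctx G a u p r) : ¬ 4 ∣ Nat.card C.D := by
  intro h4
  set Y : Set α := {x | a x = x} with hY
  have hinv : ∀ g ∈ C.D, ∀ x, x ∈ Y ↔ g x ∈ Y := by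
    intro g hg x
    show a x = x ↔ a (g x) = g x
    rw [← C.D_comm hg, g.injective.eq_iff]
  have hYc : Y.ncard = Fintype.card α - a.support.card := by
    have : Y = ((a.supportᶜ : Finset α) : Set α) := by
      ext x
      rw [Finset.mem_coe, Finset.mem_compl, Equiv.Perm.notMem_support]; rfl
    rw [this, Set.ncard_coe_finset, Finset.card_compl]
  have h1 := C.card_le
  have h2 := C.card_ge
  -- the kernel has odd order
  have hker : Odd (Nat.card (restr C.D Y hinv).ker) := by
    obtain ⟨e, f, he, hf, hef⟩ : ∃ e f, e ∈ Y ∧ f ∈ Y ∧ e ≠ f := by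
      have h3 : 1 < Y.ncard := by omega
      obtain ⟨e, he, f, hf, hef⟩ := (Set.one_lt_ncard (Set.toFinite _)).mp h3
      exact ⟨e, f, he, hf, hef⟩
    have hD : D4 e f p (a p) := by
      refine ⟨hef, ?_, ?_, ?_, ?_, C.hp.symm⟩
      · rintro rfl; exact C.hp he
      · rintro rfl; exact C.hp (a.injective he)
      · rintro rfl; exact C.hp hf
      · rintro rfl; exact C.hp (a.injective hf)
    have h3 := C.H.odd hD ((restr C.D Y hinv).ker.map C.D.subtype)
      (by
        rintro _ ⟨g, _, rfl⟩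
        exact g.2.1)
      (by
        rintro _ ⟨g, hg, rfl⟩
        have hg' : restr C.D Y hinv g = 1 := hg
        refine ⟨?_, ?_, g.2.2.2, C.D_ap g.2⟩
        · have := congrArg (fun f : Perm Y => (f ⟨e, he⟩ : α)) hg'
          exact this
        · have := congrArg (fun φ : Perm Y => (φ ⟨f, hf⟩ : α)) hg'
          exact this)
    rw [Nat.card_congr ((restr C.D Y hinv).ker.equivMapOfInjective _
      C.D.subtype_injective).toEquiv]
    exact h3
  have h5 : Nat.card (restr C.D Y hinv).range ∣ 6 := by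
    have h6 : Nat.card (restr C.D Y hinv).range ∣ Nat.card (Perm Y) :=
      Subgroup.card_subgroup_dvd_card _
    rw [Nat.card_perm, Nat.card_coe_set_eq] at h6
    have h7 : Y.ncard = 2 ∨ Y.ncard = 3 := by omega
    rcases h7 with h7 | h7
    · rw [h7] at h6
      exact h6.trans (by norm_num [Nat.factorial])
    · rw [h7] at h6
      exact h6.trans (by norm_num [Nat.factorial])
  have h6 : Nat.card (restr C.D Y hinv).ker * Nat.card (restr C.D Y hinv).range =
      Nat.card C.D := by
    have := Subgroup.card_mul_index (restr C.D Y hinv).ker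
    rwa [Subgroup.index_ker] at this
  rw [← h6] at h4
  have hcop : Nat.Coprime 4 (Nat.card (restr C.D Y hinv).ker) := by
    rw [show 4 = 2 ^ 2 by norm_num]
    exact Nat.Coprime.pow_left 2 ((Nat.coprime_two_left).mpr hker)
  have h8 := (hcop.dvd_of_dvd_mul_left h4).trans h5
  norm_num at h8

/-- The number of points moved by an involution is divisible by four. -/
theorem mod_four (C : Ctx G a u p r) : a.support.card % 4 = 0 := by
  have h1 := C.not_four_dvd
  rw [C.card_D] at h1
  have h2 := C.even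
  have h3 := C.card_ge
  have h4 := C.h8
  by_contra h5
  apply h1
  apply Dvd.dvd.mul_right
  obtain ⟨m, hm⟩ := h2
  omega

end Ctx

end Cfsg.Agent.H544.HallB
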