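import Cfsg.Agent.H544.HallB
import Cfsg.Agent.S0112
import Cfsg.Agent.S0113

/-!
# M. Hall's theorem on 4-transitive groups with four-point stabilizers of odd order

Part C: the Sylow 2-subgroup of the setwise stabilizer of two points.
-/

set_option autoImplicit false

namespace Cfsg.Agent.H544.HallC

open Equiv Equiv.Perm MulAction Cfsg.Agent.H544.MillerC Cfsg.Agent.H544.HallA
  Cfsg.Agent.H544.HallB

variable {α : Type*} [Fintype α] [DecidableEq α]

/-- One-point stabilizers inside permutation groups. -/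
def st (L : Subgroup (Perm α)) (x : α) : Subgroup (Perm α) where
  carrier := {g | g ∈ L ∧ g x = x}
  mul_mem' := by
    rintro g h ⟨h1, h2⟩ ⟨h3, h4⟩
    exact ⟨mul_mem h1 h3, by rw [Perm.mul_apply, h4, h2]⟩
  one_mem' := ⟨one_mem _, rfl⟩
  inv_mem' := by
    rintro g ⟨h1, h2⟩
    exact ⟨inv_mem h1, by rw [Perm.inv_eq_iff_eq, h2]⟩

theorem mem_st {L : Subgroup (Perm α)} {x : α} {g : Perm α} : g ∈ st L x ↔ g ∈ L ∧ g x = x :=
  Iff.rfl

theorem card_st (L : Subgroup (Perm α)) (x : α) (T : Finset α)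
    (hT : ∀ y, y ∈ T ↔ ∃ g ∈ L, g x = y) : Nat.card L = T.card * Nat.card (st L x) := by
  have h1 : MulAction.orbit L x = (T : Set α) := by
    ext y
    rw [Finset.mem_coe, hT]
    constructor
    · rintro ⟨⟨g, hg⟩, e⟩
      exact ⟨g, hg, e⟩
    · rintro ⟨g, hg, e⟩
      exact ⟨⟨g, hg⟩, e⟩
  have h3 : Nat.card (stabilizer L x) = Nat.card (st L x) := by
    apply Nat.card_congr
    exact
      { toFun := fun g => ⟨g.1.1, g.1.2, g.2⟩
        invFun := fun g => ⟨⟨g.1, g.2.1⟩, g.2.2⟩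
        left_inv := fun _ => rfl
        right_inv := fun _ => rfl }
  have h4 : Nat.card (MulAction.orbit L x) * Nat.card (stabilizer L x) = Nat.card L := by
    rw [← Nat.card_prod]
    exact Nat.card_congr (MulAction.orbitProdStabilizerEquivGroup L x)
  rw [← h4, h1, h3, Nat.card_coe_set_eq, Set.ncard_coe_finset]

theorem exists_notMem (h8 : 8 ≤ Fintype.card α) (T : Finset α) (hT : T.card < 8) :
    ∃ y, y ∉ T := by
  by_contra hcon
  push Not at hcon
  have : Fintype.card α ≤ T.card := Finset.card_le_card (fun x _ => hcon x)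
  omega

theorem exists_d4_3 (h8 : 8 ≤ Fintype.card α) {x y z : α} (hxy : x ≠ y) (hxz : x ≠ z)
    (hyz : y ≠ z) : ∃ w, D4 x y z w := by
  obtain ⟨w, hw⟩ := exists_notMem h8 {x, y, z} (lt_of_le_of_lt Finset.card_le_three (by norm_num))
  simp only [Finset.mem_insert, Finset.mem_singleton, not_or] at hw
  exact ⟨w, hxy, hxz, Ne.symm hw.1, hyz, Ne.symm hw.2.1, Ne.symm hw.2.2⟩

theorem exists_d4_2 (h8 : 8 ≤ Fintype.card α) {x y : α} (hxy : x ≠ y) :
    ∃ z w, D4 x y z w := by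
  obtain ⟨z, hz⟩ := exists_notMem h8 {x, y} (lt_of_le_of_lt Finset.card_le_two (by norm_num))
  simp only [Finset.mem_insert, Finset.mem_singleton, not_or] at hz
  obtain ⟨w, hw⟩ := exists_d4_3 h8 hxy (Ne.symm hz.1) (Ne.symm hz.2)
  exact ⟨z, w, hw⟩

theorem exists_d4_1 (h8 : 8 ≤ Fintype.card α) (x : α) : ∃ y z w, D4 x y z w := by
  obtain ⟨y, hy⟩ := exists_notMem h8 {x} (by simp)
  simp only [Finset.mem_singleton] at hy
  obtain ⟨z, w, h⟩ := exists_d4_2 h8 (Ne.symm hy)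
  exact ⟨y, z, w, h⟩

theorem elem1 {G : Subgroup (Perm α)} (H : Hyp G) (h8 : 8 ≤ Fintype.card α) (x x' : α) :
    ∃ g ∈ G, g x = x' := by
  obtain ⟨_, _, _, h⟩ := exists_d4_1 h8 x
  obtain ⟨_, _, _, h'⟩ := exists_d4_1 h8 x'
  obtain ⟨g, hg, e, _⟩ := H.elem4 h h'
  exact ⟨g, hg, e⟩

theorem elem2 {G : Subgroup (Perm α)} (H : Hyp G) (h8 : 8 ≤ Fintype.card α) {x y x' y' : α}
    (h1 : x ≠ y) (h1' : x' ≠ y') : ∃ g ∈ G, g x = x' ∧ g y = y' := by
  obtain ⟨_, _, h⟩ := exists_d4_2 h8 h1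
  obtain ⟨_, _, h'⟩ := exists_d4_2 h8 h1'
  obtain ⟨g, hg, e, e', _⟩ := H.elem4 h h'
  exact ⟨g, hg, e, e'⟩

theorem elem3 {G : Subgroup (Perm α)} (H : Hyp G) (h8 : 8 ≤ Fintype.card α)
    {x y z x' y' z' : α} (h1 : x ≠ y) (h2 : x ≠ z) (h3 : y ≠ z) (h1' : x' ≠ y') (h2' : x' ≠ z')
    (h3' : y' ≠ z') : ∃ g ∈ G, g x = x' ∧ g y = y' ∧ g z = z' := by
  obtain ⟨_, h⟩ := exists_d4_3 h8 h1 h2 h3
  obtain ⟨_, h'⟩ := exists_d4_3 h8 h1' h2' h3'
  obtain ⟨g, hg, e, e', e'', _⟩ := H.elem4 h h'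
  exact ⟨g, hg, e, e', e''⟩

/-- The order of `G` in terms of the order of the stabilizer of one point. -/
theorem card_G {G : Subgroup (Perm α)} (H : Hyp G) (h8 : 8 ≤ Fintype.card α) (x : α) :
    Nat.card G = Fintype.card α * Nat.card (st G x) := by
  rw [card_st G x Finset.univ, Finset.card_univ]
  intro y
  exact ⟨fun _ => elem1 H h8 x y, fun _ => Finset.mem_univ _⟩

theorem card_G1 {G : Subgroup (Perm α)} (H : Hyp G) (h8 : 8 ≤ Fintype.card α) {x y : α}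
    (hxy : x ≠ y) : Nat.card (st G x) = (Fintype.card α - 1) * Nat.card (st (st G x) y) := by
  rw [card_st (st G x) y (Finset.univ \ {x}), Finset.card_sdiff_of_subset (Finset.subset_univ _),
    Finset.card_univ, Finset.card_singleton]
  intro z
  rw [Finset.mem_sdiff, Finset.mem_singleton]
  constructor
  · rintro ⟨_, hz⟩
    obtain ⟨g, hg, e, e'⟩ := elem2 H h8 hxy (Ne.symm hz)
    exact ⟨g, ⟨hg, e⟩, e'⟩
  · rintro ⟨g, ⟨hg, e⟩, rfl⟩
    refine ⟨Finset.mem_univ _, fun h => hxy ?_⟩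
    rw [← e] at h
    exact (g.injective h).symm

theorem card_G2 {G : Subgroup (Perm α)} (H : Hyp G) (h8 : 8 ≤ Fintype.card α) {x y z : α}
    (hxy : x ≠ y) (hxz : x ≠ z) (hyz : y ≠ z) :
    Nat.card (st (st G x) y) = (Fintype.card α - 2) * Nat.card (st (st (st G x) y) z) := by
  rw [card_st (st (st G x) y) z (Finset.univ \ {x, y}),
    Finset.card_sdiff_of_subset (Finset.subset_univ _), Finset.card_univ, Finset.card_pair hxy]
  intro w
  rw [Finset.mem_sdiff, Finset.mem_insert, Finset.mem_singleton, not_or]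
  constructor
  · rintro ⟨_, hz, hz'⟩
    obtain ⟨g, hg, e, e', e''⟩ := elem3 H h8 hxy hxz hyz hxy (Ne.symm hz) (Ne.symm hz')
    exact ⟨g, ⟨⟨hg, e⟩, e'⟩, e''⟩
  · rintro ⟨g, ⟨⟨hg, e⟩, e'⟩, rfl⟩
    refine ⟨Finset.mem_univ _, fun h => hxz ?_, fun h => hyz ?_⟩
    · rw [← e] at h
      exact (g.injective h).symm
    · rw [← e'] at h
      exact (g.injective h).symm

theorem card_G3 {G : Subgroup (Perm α)} (H : Hyp G) {x y z w : α} (h : D4 x y z w) :
    Nat.card (st (st (st G x) y) z) =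
      (Fintype.card α - 3) * Nat.card (st (st (st (st G x) y) z) w) := by
  obtain ⟨h1, h2, h3, h4, h5, h6⟩ := h
  rw [card_st (st (st (st G x) y) z) w (Finset.univ \ {x, y, z}),
    Finset.card_sdiff_of_subset (Finset.subset_univ _), Finset.card_univ,
    Finset.card_eq_three.mpr ⟨x, y, z, h1, h2, h4, rfl⟩]
  intro v
  rw [Finset.mem_sdiff, Finset.mem_insert, Finset.mem_insert, Finset.mem_singleton, not_or, not_or]
  constructor
  · rintro ⟨_, hz, hz', hz''⟩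
    obtain ⟨g, hg, e, e', e'', e'''⟩ := H.elem4 (a' := x) (b' := y) (c' := z) (d' := v)
      ⟨h1, h2, h3, h4, h5, h6⟩ ⟨h1, h2, Ne.symm hz, h4, Ne.symm hz', Ne.symm hz''⟩
    exact ⟨g, ⟨⟨⟨hg, e⟩, e'⟩, e''⟩, e'''⟩
  · rintro ⟨g, ⟨⟨⟨hg, e⟩, e'⟩, e''⟩, rfl⟩
    refine ⟨Finset.mem_univ _, fun h => h3 ?_, fun h => h5 ?_, fun h => h6 ?_⟩
    · rw [← e] at h
      exact (g.injective h).symm
    · rw [← e'] at h
      exact (g.injective h).symm
    · rw [← e''] at h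
      exact (g.injective h).symm

theorem odd_G4 {G : Subgroup (Perm α)} (H : Hyp G) {x y z w : α} (h : D4 x y z w) :
    Odd (Nat.card (st (st (st (st G x) y) z) w)) := by
  apply H.odd h
  · intro g hg; exact hg.1.1.1.1
  · intro g hg; exact ⟨hg.1.1.1.2, hg.1.1.2, hg.1.2, hg.2⟩

end Cfsg.Agent.H544.HallC

namespace Cfsg.Agent.H544.HallB.Ctx

open Equiv Equiv.Perm MulAction Cfsg.Agent.H544.MillerC Cfsg.Agent.H544.HallA
  Cfsg.Agent.H544.HallB Cfsg.Agent.H544.HallC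

variable {α : Type*} [Fintype α] [DecidableEq α]
variable {G : Subgroup (Perm α)} {a u : Perm α} {p r : α}

/-- The setwise stabilizer of `{p, a p}`. -/
def X (_ : Ctx G a u p r) : Subgroup (Perm α) where
  carrier := {g | g ∈ G ∧ ((g p = p ∧ g (a p) = a p) ∨ (g p = a p ∧ g (a p) = p))}
  mul_mem' := by
    rintro g h ⟨h1, h2⟩ ⟨h3, h4⟩
    refine ⟨mul_mem h1 h3, ?_⟩
    rw [Perm.mul_apply, Perm.mul_apply]
    rcases h4 with ⟨e1, e2⟩ | ⟨e1, e2⟩ <;> rcases h2 with ⟨e3, e4⟩ | ⟨e3, e4⟩ <;>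
      rw [e1, e2, e3, e4] <;> simp
  one_mem' := ⟨one_mem _, Or.inl ⟨rfl, rfl⟩⟩
  inv_mem' := by
    rintro g ⟨h1, h2⟩
    refine ⟨inv_mem h1, ?_⟩
    rw [Perm.inv_eq_iff_eq, Perm.inv_eq_iff_eq, Perm.inv_eq_iff_eq, Perm.inv_eq_iff_eq]
    rcases h2 with ⟨e1, e2⟩ | ⟨e1, e2⟩
    · exact Or.inl ⟨e1.symm, e2.symm⟩
    · exact Or.inr ⟨e2.symm, e1.symm⟩

/-- The pointwise stabilizer of `{p, a p}`. -/
def X0 (_ : Ctx G a u p r) : Subgroup (Perm α) := st (st G p) (a p)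

theorem mem_X0 (C : Ctx G a u p r) {g : Perm α} : g ∈ C.X0 ↔ g ∈ G ∧ g p = p ∧ g (a p) = a p := by
  constructor
  · rintro ⟨⟨h1, h2⟩, h3⟩; exact ⟨h1, h2, h3⟩
  · rintro ⟨h1, h2, h3⟩; exact ⟨⟨h1, h2⟩, h3⟩

theorem X0_le (C : Ctx G a u p r) : C.X0 ≤ C.X := by
  intro g hg
  rw [C.mem_X0] at hg
  exact ⟨hg.1, Or.inl hg.2⟩

theorem a_mem_X (C : Ctx G a u p r) : a ∈ C.X := ⟨C.ha, Or.inr ⟨rfl, C.aa p⟩⟩

theorem u_mem_X0 (C : Ctx G a u p r) : u ∈ C.X0 := by
  rw [C.mem_X0]; exact ⟨C.hu, C.up, C.uap⟩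

theorem a_notMem_X0 (C : Ctx G a u p r) : a ∉ C.X0 := by
  rw [C.mem_X0]; rintro ⟨_, h, _⟩; exact C.hp h

theorem X_cases (C : Ctx G a u p r) {g : Perm α} (hg : g ∈ C.X) : g ∈ C.X0 ∨ a * g ∈ C.X0 := by
  rcases hg with ⟨h1, ⟨e1, e2⟩ | ⟨e1, e2⟩⟩
  · left; rw [C.mem_X0]; exact ⟨h1, e1, e2⟩
  · right; rw [C.mem_X0]
    refine ⟨mul_mem C.ha h1, ?_, ?_⟩
    · rw [Perm.mul_apply, e1, C.aa]
    · rw [Perm.mul_apply, e2]

theorem card_X (C : Ctx G a u p r) : Nat.card C.X = 2 * Nat.card C.X0 := by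
  have h1 : st C.X p = C.X0 := by
    ext g
    rw [mem_st, C.mem_X0]
    constructor
    · rintro ⟨⟨h1, ⟨e1, e2⟩ | ⟨e1, e2⟩⟩, h3⟩
      · exact ⟨h1, e1, e2⟩
      · exact absurd (e1.symm.trans h3) C.hp
    · rintro ⟨h1, e1, e2⟩
      exact ⟨⟨h1, Or.inl ⟨e1, e2⟩⟩, e1⟩
  rw [card_st C.X p {p, a p}, h1, Finset.card_pair C.hp.symm]
  intro y
  rw [Finset.mem_insert, Finset.mem_singleton]
  constructor
  · rintro (rfl | rfl)
    · exact ⟨1, one_mem _, rfl⟩
    · exact ⟨a, C.a_mem_X, rfl⟩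
  · rintro ⟨g, ⟨_, ⟨e1, _⟩ | ⟨e1, _⟩⟩, rfl⟩
    · exact Or.inl e1
    · exact Or.inr e1

theorem nmod (C : Ctx G a u p r) : Fintype.card α % 4 = 2 ∨ Fintype.card α % 4 = 3 := by
  have h1 := C.mod_four
  have h2 := C.card_le
  have h3 := C.card_ge
  omega

/-- `4` divides the order of `X0`. -/
theorem four_dvd_X0 (C : Ctx G a u p r) : 4 ∣ Nat.card C.X0 := by
  have h1 := card_G2 C.H C.h8 (x := p) (y := a p) (z := r) C.hp.symm C.hrp.symm C.hrp2.symm
  have h2 := card_G3 C.H C.d4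
  have h3 : Nat.card C.X0 = (Fintype.card α - 2) * ((Fintype.card α - 3) *
      Nat.card (st (st (st (st G p) (a p)) r) (a r))) := by
    rw [← h2]; exact h1
  rw [h3, ← mul_assoc]
  apply Dvd.dvd.mul_right
  rcases C.nmod with h | h
  · apply Dvd.dvd.mul_right; omega
  · apply Dvd.dvd.mul_left; omega

/-- The index of `X` in `G` is odd. -/
theorem exists_odd_G (C : Ctx G a u p r) : ∃ m, Odd m ∧ Nat.card G = m * Nat.card C.X := by
  have h1 := card_G C.H C.h8 p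
  have h2 := card_G1 C.H C.h8 (x := p) (y := a p) C.hp.symm
  have h3 : Nat.card (st (st G p) (a p)) = Nat.card C.X0 := rfl
  rw [h2, h3] at h1
  have h8 := C.h8
  rcases C.nmod with h | h
  · refine ⟨(Fintype.card α / 2) * (Fintype.card α - 1), ?_, ?_⟩
    · rw [Nat.odd_mul]
      constructor
      · rw [Nat.odd_iff]; omega
      · rw [Nat.odd_iff]; omega
    · rw [h1, C.card_X]
      obtain ⟨k, hk⟩ : ∃ k, Fintype.card α = 2 * k := ⟨Fintype.card α / 2, by omega⟩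
      rw [hk, Nat.mul_div_cancel_left k (by norm_num)]
      ring
  · refine ⟨Fintype.card α * ((Fintype.card α - 1) / 2), ?_, ?_⟩
    · rw [Nat.odd_mul]
      constructor
      · rw [Nat.odd_iff]; omega
      · rw [Nat.odd_iff]; omega
    · rw [h1, C.card_X]
      obtain ⟨k, hk⟩ : ∃ k, Fintype.card α - 1 = 2 * k := ⟨(Fintype.card α - 1) / 2, by omega⟩
      rw [hk, Nat.mul_div_cancel_left k (by norm_num)]
      ring

/-- The four-group `{1, a, u, a u}`. -/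
def V (C : Ctx G a u p r) : Subgroup (Perm α) where
  carrier := {g | g = 1 ∨ g = a ∨ g = u ∨ g = a * u}
  mul_mem' := by
    have e1 := C.haa
    have e2 := C.huu
    have e3 := C.hua
    have e4 : a * (a * u) = u := by rw [← mul_assoc, e1, one_mul]
    have e5 : a * u * a = u := by rw [mul_assoc, e3, e4]
    have e6 : a * u * u = a := by rw [mul_assoc, e2, mul_one]
    have e7 : u * (a * u) = a := by rw [← mul_assoc, e3, e6]
    have e8 : a * u * (a * u) = 1 := by rw [← mul_assoc, e5, e2]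
    rintro g h (rfl | rfl | rfl | rfl) (rfl | rfl | rfl | rfl) <;>
      simp [e1, e2, e3, e4, e5, e6, e7, e8]
  one_mem' := Or.inl rfl
  inv_mem' := by
    have e1 : a⁻¹ = a := inv_eq_of_mul_eq_one_right C.haa
    have e2 : u⁻¹ = u := inv_eq_of_mul_eq_one_right C.huu
    rintro g (rfl | rfl | rfl | rfl)
    · left; simp
    · right; left; exact e1
    · right; right; left; exact e2
    · right; right; right
      rw [mul_inv_rev, e1, e2, C.hua]

theorem mem_V (C : Ctx G a u p r) {g : Perm α} : g ∈ C.V ↔ g = 1 ∨ g = a ∨ g = u ∨ g = a * u :=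
  Iff.rfl

theorem a_ne_u (C : Ctx G a u p r) : a ≠ u := by
  intro h
  apply C.hp
  rw [h]; exact C.up

theorem card_V (C : Ctx G a u p r) : Nat.card C.V = 4 := by
  have h1 : (C.V : Set (Perm α)) = (({1, a, u, a * u} : Finset (Perm α)) : Set (Perm α)) := by
    ext g
    simp only [SetLike.mem_coe, C.mem_V, Finset.coe_insert, Finset.coe_singleton,
      Set.mem_insert_iff, Set.mem_singleton_iff]
  have h2 : Nat.card C.V = (C.V : Set (Perm α)).ncard := rfl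
  rw [h2, h1, Set.ncard_coe_finset]
  have n1 := C.ha1
  have n2 := C.hu1
  have n3 := C.a_ne_u
  have n4 : a * u ≠ 1 := by
    intro h
    apply n3
    rw [← mul_one a, ← C.huu, ← mul_assoc, h, one_mul]
  have n5 : a * u ≠ a := by
    intro h; exact n2 (mul_eq_left.mp h)
  have n6 : a * u ≠ u := by
    intro h; exact n1 (mul_eq_right.mp h)
  rw [Finset.card_insert_of_notMem, Finset.card_insert_of_notMem, Finset.card_insert_of_notMem,
    Finset.card_singleton]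
  · simp [n6.symm]
  · simp [n3, n5.symm]
  · simp [n1.symm, n2.symm, n4.symm]

end Cfsg.Agent.H544.HallB.Ctx
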