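import Cfsg.Agent.H544.HallC

/-!
# M. Hall's theorem on 4-transitive groups with four-point stabilizers of odd order

Part D: the structure of the Sylow 2-subgroup.
-/

set_option autoImplicit false

namespace Cfsg.Agent.H544.HallB.Ctx

open Equiv Equiv.Perm MulAction Cfsg.Agent.H544.MillerC Cfsg.Agent.H544.HallA
  Cfsg.Agent.H544.HallB Cfsg.Agent.H544.HallC

variable {α : Type*} [Fintype α] [DecidableEq α]
variable {G : Subgroup (Perm α)} {a u : Perm α} {p r : α}

/-- A Sylow 2-subgroup of `X` containing `V`. -/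
structure Syl (C : Ctx G a u p r) (S : Subgroup (Perm α)) (k m : ℕ) : Prop where
  VS : C.V ≤ S
  SX : S ≤ C.X
  card : Nat.card S = 2 ^ k
  odd : Odd m
  cardX : Nat.card C.X = m * 2 ^ k

theorem V_le_X (C : Ctx G a u p r) : C.V ≤ C.X := by
  rintro g (rfl | rfl | rfl | rfl)
  · exact one_mem _
  · exact C.a_mem_X
  · exact C.X0_le C.u_mem_X0
  · exact mul_mem C.a_mem_X (C.X0_le C.u_mem_X0)

theorem exists_syl (C : Ctx G a u p r) : ∃ S k m, Syl C S k m := by
  have hV : IsPGroup 2 (C.V.subgroupOf C.X) := by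
    apply IsPGroup.of_card (n := 2)
    rw [Nat.card_congr (Subgroup.subgroupOfEquivOfLe C.V_le_X).toEquiv, C.card_V]
    norm_num
  obtain ⟨Q, hQ⟩ := hV.exists_le_sylow
  refine ⟨(Q : Subgroup C.X).map C.X.subtype, (Nat.card C.X).factorization 2,
    Nat.card C.X / 2 ^ (Nat.card C.X).factorization 2, ?_, Subgroup.map_subtype_le _, ?_, ?_, ?_⟩
  · intro g hg
    exact ⟨⟨g, C.V_le_X hg⟩, hQ hg, rfl⟩
  · rw [Nat.card_congr ((Q : Subgroup C.X).equivMapOfInjective _
      C.X.subtype_injective).toEquiv.symm]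
    exact Q.card_eq_multiplicity
  · rw [← Nat.coprime_two_left]
    exact Nat.coprime_ordCompl Nat.prime_two Nat.card_pos.ne'
  · exact (Nat.div_mul_cancel (Nat.ordProj_dvd _ _)).symm

theorem sq_mem_X0 (C : Ctx G a u p r) {g : Perm α} (hg : g ∈ C.X) : g * g ∈ C.X0 := by
  rw [C.mem_X0]
  rcases hg with ⟨h1, ⟨e1, e2⟩ | ⟨e1, e2⟩⟩
  · exact ⟨mul_mem h1 h1, by rw [Perm.mul_apply, e1, e1], by rw [Perm.mul_apply, e2, e2]⟩
  · exact ⟨mul_mem h1 h1, by rw [Perm.mul_apply, e1, e2], by rw [Perm.mul_apply, e2, e1]⟩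

namespace Syl

variable {C : Ctx G a u p r} {S : Subgroup (Perm α)} {k m : ℕ}

theorem k_ge (Y : Syl C S k m) : 3 ≤ k := by
  by_contra hlt
  push Not at hlt
  have h1 : 8 ∣ Nat.card C.X := by
    rw [C.card_X]
    obtain ⟨c, hc⟩ := C.four_dvd_X0
    exact ⟨c, by rw [hc]; ring⟩
  rw [Y.cardX] at h1
  obtain ⟨j, hj⟩ := Y.odd
  have hk : k = 0 ∨ k = 1 ∨ k = 2 := by omega
  rcases hk with rfl | rfl | rfl <;> omega

theorem aS (Y : Syl C S k m) : a ∈ S := Y.VS (Or.inr (Or.inl rfl))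

theorem uS (Y : Syl C S k m) : u ∈ S := Y.VS (Or.inr (Or.inr (Or.inl rfl)))

theorem D_cap (Y : Syl C S k m) {g : Perm α} (hg : g ∈ S) (hD : g ∈ C.D) : g = 1 ∨ g = u := by
  have huD : u ∈ C.D := ⟨C.hu, C.hua, C.up⟩
  have h1 : Nat.card (S ⊓ C.D : Subgroup (Perm α)) ∣ 2 ^ k := by
    rw [← Y.card]; exact Subgroup.card_dvd_of_le inf_le_left
  have h2 : Nat.card (S ⊓ C.D : Subgroup (Perm α)) ∣ Nat.card C.D :=
    Subgroup.card_dvd_of_le inf_le_right
  obtain ⟨j, _, hj⟩ := (Nat.dvd_prime_pow Nat.prime_two).mp h1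
  have hj1 : j ≤ 1 := by
    by_contra hlt
    push Not at hlt
    apply C.not_four_dvd
    refine dvd_trans ?_ h2
    rw [hj, show 4 = 2 ^ 2 by norm_num]
    exact pow_dvd_pow 2 hlt
  have hle : Nat.card (S ⊓ C.D : Subgroup (Perm α)) ≤ 2 := by
    rw [hj]
    calc 2 ^ j ≤ 2 ^ 1 := Nat.pow_le_pow_right (by norm_num) hj1
      _ = 2 := by norm_num
  have hz : Nat.card (Subgroup.zpowers u) = 2 := by
    rw [Nat.card_zpowers]
    exact orderOf_eq_prime (by rw [pow_two, C.huu]) C.hu1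
  have hzle : Subgroup.zpowers u ≤ S ⊓ C.D := by
    rw [Subgroup.zpowers_le]; exact ⟨Y.uS, huD⟩
  have heq : Subgroup.zpowers u = S ⊓ C.D :=
    Subgroup.eq_of_le_of_card_ge hzle (by rw [hz]; exact hle)
  have hg2 : g ∈ Subgroup.zpowers u := by rw [heq]; exact ⟨hg, hD⟩
  obtain ⟨i, rfl⟩ := Subgroup.mem_zpowers_iff.mp hg2
  rcases Int.even_or_odd' i with ⟨c, rfl | rfl⟩
  · left
    rw [zpow_mul, zpow_two, C.huu, one_zpow]
  · right
    rw [zpow_add, zpow_mul, zpow_two, C.huu, one_zpow, one_mul, zpow_one]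

theorem cent (Y : Syl C S k m) {g : Perm α} (hg : g ∈ S) (hga : g * a = a * g) : g ∈ C.V := by
  rcases C.X_cases (Y.SX hg) with h | h
  · rw [C.mem_X0] at h
    rcases Y.D_cap hg ⟨h.1, hga, h.2.1⟩ with rfl | rfl
    · exact Or.inl rfl
    · exact Or.inr (Or.inr (Or.inl rfl))
  · rw [C.mem_X0] at h
    have hag : a * g * a = a * (a * g) := by rw [mul_assoc, hga]
    rcases Y.D_cap (mul_mem Y.aS hg) ⟨h.1, hag, h.2.1⟩ with h1 | h1
    · right; left
      have : g = a⁻¹ := (inv_eq_of_mul_eq_one_right h1).symm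
      rw [this]; exact inv_eq_of_mul_eq_one_right C.haa
    · right; right; right
      rw [← h1, ← mul_assoc, C.haa, one_mul]

/-- `S` contains a cyclic subgroup of index two, not containing `a`, with unique involution
`u`. -/
theorem exists_cyclic (Y : Syl C S k m) : ∃ x ∈ S, orderOf x = 2 ^ (k - 1) ∧
    a ∉ Subgroup.zpowers x ∧ (∀ g ∈ S, g ∈ Subgroup.zpowers x ∨ g * a ∈ Subgroup.zpowers x) ∧
    (∀ g ∈ S, g * x * g⁻¹ ∈ Subgroup.zpowers x) ∧ x ^ 2 ^ (k - 2) = u := by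
  have hk := Y.k_ge
  have hfact : Fact (Nat.Prime 2) := ⟨Nat.prime_two⟩
  have hA : Nat.card (C.V.subgroupOf S) = 2 ^ 2 := by
    rw [Nat.card_congr (Subgroup.subgroupOfEquivOfLe Y.VS).toEquiv, C.card_V]; norm_num
  have haA : (⟨a, Y.aS⟩ : S) ∈ C.V.subgroupOf S := Or.inr (Or.inl rfl)
  have hC : Subgroup.centralizer ((C.V.subgroupOf S : Subgroup S) : Set S) = C.V.subgroupOf S := by
    apply le_antisymm
    · intro g hg
      have h1 := Subgroup.mem_centralizer_iff.mp hg _ haA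
      have h2 : a * (g : Perm α) = g * a := congrArg Subtype.val h1
      exact Y.cent g.2 h2.symm
    · intro g hg
      rw [Subgroup.mem_centralizer_iff]
      intro h hh
      apply Subtype.ext
      show (h : Perm α) * g = g * h
      have e3 := C.hua
      have e5 : a * u * a = u := by rw [mul_assoc, e3, ← mul_assoc, C.haa, one_mul]
      have e6 : a * u * u = a := by rw [mul_assoc, C.huu, mul_one]
      have e7 : u * (a * u) = a := by rw [← mul_assoc, e3, e6]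
      have e4 : a * (a * u) = u := by rw [← mul_assoc, C.haa, one_mul]
      have hg' : (g : Perm α) = 1 ∨ (g : Perm α) = a ∨ (g : Perm α) = u ∨ (g : Perm α) = a * u := hg
      have hh' : (h : Perm α) = 1 ∨ (h : Perm α) = a ∨ (h : Perm α) = u ∨ (h : Perm α) = a * u := hh
      rcases hg' with hg' | hg' | hg' | hg' <;> rcases hh' with hh' | hh' | hh' | hh' <;>
        rw [hg', hh'] <;> simp [e3, e4, e5, e6, e7]
  have hmax := Cfsg.Agent.S0112.result (X := S) (p := 2) k Y.card (C.V.subgroupOf S) hA hC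
  obtain ⟨K, hKc, hKi⟩ := Cfsg.Agent.S0113.result (X := S) k hk Y.card hmax
  obtain ⟨x', hx'⟩ := hKc.exists_generator
  set x : Perm α := ((x' : S) : Perm α) with hx
  have hmem : ∀ g : S, g ∈ K ↔ (g : Perm α) ∈ Subgroup.zpowers x := by
    intro g
    constructor
    · intro hg
      obtain ⟨i, hi⟩ := Subgroup.mem_zpowers_iff.mp (hx' ⟨g, hg⟩)
      rw [Subgroup.mem_zpowers_iff]
      refine ⟨i, ?_⟩
      have := congrArg (fun z : K => ((z : S) : Perm α)) hi
      exact this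
    · intro hg
      obtain ⟨i, hi⟩ := Subgroup.mem_zpowers_iff.mp hg
      have h1 : ((x' ^ i : K) : S) = g := Subtype.ext hi
      rw [← h1]; exact (x' ^ i).2
  have hcardK : Nat.card K = 2 ^ (k - 1) := by
    have h1 := K.card_mul_index
    rw [hKi, Y.card] at h1
    have h2 : 2 ^ k = 2 ^ (k - 1) * 2 := by
      rw [← pow_succ]; congr 1; omega
    rw [h2] at h1
    exact Nat.eq_of_mul_eq_mul_right (by norm_num) h1
  have hord : orderOf x = 2 ^ (k - 1) := by
    have h1 : orderOf x' = Nat.card K := orderOf_eq_card_of_forall_mem_zpowers hx'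
    rw [← hcardK, ← h1, hx, Subgroup.orderOf_coe, Subgroup.orderOf_coe]
  have hKn : K.Normal := Subgroup.normal_of_index_eq_two hKi
  have hconj : ∀ g ∈ S, g * x * g⁻¹ ∈ Subgroup.zpowers x := by
    intro g hg
    have h1 : (⟨g, hg⟩ : S) * x' * (⟨g, hg⟩ : S)⁻¹ ∈ K := hKn.conj_mem x' x'.2 ⟨g, hg⟩
    exact (hmem _).mp h1
  -- elements of `V` are killed by `2`
  have hV2 : ∀ g ∈ C.V, g * g = 1 := by
    have e3 := C.hua
    have e5 : a * u * a = u := by rw [mul_assoc, e3, ← mul_assoc, C.haa, one_mul]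
    rintro g (rfl | rfl | rfl | rfl)
    · simp
    · exact C.haa
    · exact C.huu
    · rw [← mul_assoc, e5, C.huu]
  have haK : a ∉ Subgroup.zpowers x := by
    intro ha
    have h1 : x ∈ C.V := by
      apply Y.cent (x' : S).2
      obtain ⟨i, hi⟩ := Subgroup.mem_zpowers_iff.mp ha
      rw [← hi]
      exact (Commute.self_zpow x i).eq
    have h2 := hV2 x h1
    have h3 : orderOf x ∣ 2 := orderOf_dvd_of_pow_eq_one (by rw [pow_two, h2])
    rw [hord] at h3
    have h4 : 2 ^ 2 ∣ 2 ^ (k - 1) := pow_dvd_pow 2 (by omega)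
    have h5 := Nat.le_of_dvd (by norm_num) (h4.trans h3)
    norm_num at h5
  have hdich : ∀ g ∈ S, g ∈ Subgroup.zpowers x ∨ g * a ∈ Subgroup.zpowers x := by
    intro g hg
    have h1 := Subgroup.mul_mem_iff_of_index_two hKi (a := ⟨g, hg⟩) (b := ⟨a, Y.aS⟩)
    by_cases h2 : (⟨g, hg⟩ : S) ∈ K
    · exact Or.inl ((hmem _).mp h2)
    · right
      have h3 : (⟨a, Y.aS⟩ : S) ∉ K := fun h => haK ((hmem _).mp h)
      exact (hmem _).mp (h1.mpr (iff_of_false h2 h3))
  refine ⟨x, (x' : S).2, hord, haK, hdich, hconj, ?_⟩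
  -- the involution of `⟨x⟩`
  set z : Perm α := x ^ 2 ^ (k - 2) with hz
  have hzS : z ∈ S := pow_mem (x' : S).2 _
  have hzz : z * z = 1 := by
    rw [hz, ← pow_two, ← pow_mul, ← pow_succ, show k - 2 + 1 = k - 1 by omega, ← hord,
      pow_orderOf_eq_one]
  have hz1 : z ≠ 1 := by
    intro h
    have h1 := orderOf_dvd_of_pow_eq_one h
    rw [hord, Nat.pow_dvd_pow_iff_le_right (by norm_num)] at h1
    omega
  have hzX0 : z ∈ C.X0 := by
    have h1 : z = x ^ 2 ^ (k - 3) * x ^ 2 ^ (k - 3) := by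
      rw [← pow_two, ← pow_mul, ← pow_succ, show k - 3 + 1 = k - 2 by omega]
    rw [h1]
    exact C.sq_mem_X0 (pow_mem (Y.SX (x' : S).2) _)
  have hza : z * a = a * z := by
    obtain ⟨i, hi⟩ := Subgroup.mem_zpowers_iff.mp (hconj a Y.aS)
    have h1 : a * z * a⁻¹ = z ^ i := by
      rw [hz, ← conj_pow, ← hi, ← zpow_natCast, ← zpow_natCast, ← zpow_mul, ← zpow_mul, mul_comm]
    rcases Int.even_or_odd' i with ⟨c, rfl | rfl⟩
    · exfalso
      rw [zpow_mul, zpow_two, hzz, one_zpow, conj_eq_one_iff] at h1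
      exact hz1 h1
    · rw [zpow_add, zpow_mul, zpow_two, hzz, one_zpow, one_mul, zpow_one] at h1
      calc z * a = (a * z * a⁻¹) * a := by rw [h1]
        _ = a * z := by group
  rcases Y.cent hzS hza with h | h | h | h
  · exact absurd h hz1
  · exact absurd (h ▸ hzX0) C.a_notMem_X0
  · exact h
  · exfalso
    rw [h] at hzX0
    apply C.a_notMem_X0
    have := mul_mem hzX0 (inv_mem C.u_mem_X0)
    rwa [mul_inv_cancel_right] at this

/-- Either `u` is the only involution of `S ∩ X0`, or `S` is dihedral. -/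
theorem dichotomy (Y : Syl C S k m) :
    (∀ t ∈ S, t ∈ C.X0 → t * t = 1 → t = 1 ∨ t = u) ∨
    ∃ x ∈ S, orderOf x = 2 ^ (k - 1) ∧ a ∉ Subgroup.zpowers x ∧
      (∀ g ∈ S, g ∈ Subgroup.zpowers x ∨ g * a ∈ Subgroup.zpowers x) ∧ a * x * a⁻¹ = x⁻¹ := by
  obtain ⟨x, hxS, hord, haK, hdich, hconj, hxu⟩ := Y.exists_cyclic
  have hk := Y.k_ge
  by_cases hno : ∀ t ∈ S, t ∈ C.X0 → t * t = 1 → t = 1 ∨ t = u
  · exact Or.inl hno
  right
  refine ⟨x, hxS, hord, haK, hdich, ?_⟩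
  push Not at hno
  obtain ⟨t, htS, htX, htt, ht1, htu⟩ := hno
  -- `t` is not in `⟨x⟩`
  have htx : t ∉ Subgroup.zpowers x := by
    intro h
    rw [← mem_powers_iff_mem_zpowers] at h
    obtain ⟨i, rfl⟩ := h
    have htt' : x ^ i * x ^ i = 1 := htt
    rw [← pow_add, ← two_mul] at htt'
    have h1 := orderOf_dvd_of_pow_eq_one htt'
    rw [hord, show k - 1 = k - 2 + 1 by omega, pow_succ, mul_comm] at h1
    have h2 : 2 ^ (k - 2) ∣ i := Nat.dvd_of_mul_dvd_mul_left (by norm_num) h1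
    obtain ⟨j, rfl⟩ := h2
    have h3 : x ^ (2 ^ (k - 2) * j) = u ^ j := by rw [pow_mul, hxu]
    rcases Nat.even_or_odd' j with ⟨c, rfl | rfl⟩
    · apply ht1
      show x ^ (2 ^ (k - 2) * (2 * c)) = 1
      rw [h3, pow_mul, pow_two, C.huu, one_pow]
    · apply htu
      show x ^ (2 ^ (k - 2) * (2 * c + 1)) = u
      rw [h3, pow_succ, pow_mul, pow_two, C.huu, one_pow, one_mul]
  have h1 := (hdich t htS).resolve_left htx
  rw [← mem_powers_iff_mem_zpowers] at h1
  obtain ⟨i, hi⟩ := h1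
  have hi' : x ^ i = t * a := hi
  have hai : a⁻¹ = a := inv_eq_of_mul_eq_one_right C.haa
  have hodd : Odd i := by
    rw [← Nat.not_even_iff_odd]
    rintro ⟨j, rfl⟩
    apply C.a_notMem_X0
    have h2 : x ^ (j + j) ∈ C.X0 := by
      rw [pow_add]
      exact C.sq_mem_X0 (pow_mem (Y.SX hxS) j)
    rw [hi'] at h2
    have := mul_mem (inv_mem htX) h2
    rwa [inv_mul_cancel_left] at this
  have h3 : a * x ^ i * a⁻¹ = (x ^ i)⁻¹ := by
    rw [hi', mul_inv_rev, hai]
    have : t⁻¹ = t := inv_eq_of_mul_eq_one_right htt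
    rw [this, mul_assoc, mul_assoc, C.haa, mul_one]
  -- `x` is a power of `x^i`
  have hcop : Nat.Coprime i (orderOf x) := by
    rw [hord]
    exact Nat.Coprime.pow_right _ ((Nat.coprime_two_right).mpr hodd)
  obtain ⟨j, hj⟩ : ∃ j : ℕ, (x ^ i) ^ j = x := exists_pow_eq_self_of_coprime hcop
  calc a * x * a⁻¹ = a * (x ^ i) ^ j * a⁻¹ := by rw [hj]
    _ = (a * x ^ i * a⁻¹) ^ j := by rw [conj_pow]
    _ = ((x ^ i)⁻¹) ^ j := by rw [h3]
    _ = x⁻¹ := by rw [inv_pow, hj]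

end Syl

end Cfsg.Agent.H544.HallB.Ctx
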