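import Cfsg.Agent.H544.HallD
import Cfsg.Agent.S0514
import Cfsg.Agent.Lib.Dihedral

/-!
# M. Hall's theorem on 4-transitive groups with four-point stabilizers of odd order

Part E: the Sylow 2-subgroup is not dihedral.
-/

set_option autoImplicit false

namespace Cfsg.Agent.H544.HallB.Ctx

open Equiv Equiv.Perm MulAction Cfsg.Agent.H544.MillerC Cfsg.Agent.H544.HallA
  Cfsg.Agent.H544.HallB Cfsg.Agent.H544.HallC

variable {α : Type*} [Fintype α] [DecidableEq α]
variable {G : Subgroup (Perm α)} {a u : Perm α} {p r : α}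

/-- An element of odd order whose square fixes a point fixes the point. -/
theorem fix_of_sq {κ : Perm α} (h : Odd (orderOf κ)) {y : α} (hy : κ (κ y) = y) : κ y = y := by
  obtain ⟨c, hc⟩ := h
  have h1 : ∀ i : ℕ, (κ ^ (2 * i)) y = y := by
    intro i
    induction i with
    | zero => simp
    | succ i ih =>
      rw [show 2 * (i + 1) = 2 * i + 2 by ring, pow_add, Perm.mul_apply, pow_two, Perm.mul_apply,
        hy, ih]
  have h2 : κ ^ (2 * (c + 1)) = κ := by
    rw [show 2 * (c + 1) = (2 * c + 1) + 1 by ring, ← hc, pow_succ, pow_orderOf_eq_one, one_mul]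
  calc κ y = (κ ^ (2 * (c + 1))) y := by rw [h2]
    _ = y := h1 _

/-- A normal subgroup of odd order of `C_G(a)` fixes all points moved by `a`. -/
theorem odd_normal_fix (C : Ctx G a u p r) (K : Subgroup (Perm α)) (hKG : K ≤ G)
    (hKa : ∀ κ ∈ K, κ * a = a * κ) (hKn : ∀ g ∈ G, g * a = a * g → ∀ κ ∈ K, g * κ * g⁻¹ ∈ K)
    (hKo : Odd (Nat.card K)) : ∀ κ ∈ K, ∀ y, a y ≠ y → κ y = y := by
  have hord : ∀ κ ∈ K, Odd (orderOf κ) := by
    intro κ hκ
    have h1 : orderOf (⟨κ, hκ⟩ : K) ∣ Nat.card K := orderOf_dvd_natCard _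
    rw [Subgroup.orderOf_mk] at h1
    exact Odd.of_dvd_nat hKo h1
  have hcom : ∀ κ ∈ K, ∀ x, κ (a x) = a (κ x) := by
    intro κ hκ x
    rw [← Perm.mul_apply, hKa κ hκ]; rfl
  intro κ hκ y hy
  by_contra hne
  have h1 : κ y ≠ a y := by
    intro h
    apply hne
    apply fix_of_sq (hord κ hκ)
    rw [h, hcom κ hκ, h, C.aa]
  have h2 : a (κ y) ≠ κ y := by
    rw [← hcom κ hκ]
    exact fun h => hy (κ.injective h)
  have h3 : a (a (κ y)) ≠ a (κ y) := fun h => h2 (a.injective h)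
  have h4 : a (κ y) ≠ y := by
    intro h
    apply h1
    rw [← h, C.aa, h]
  have h5 : a (κ y) ≠ a y := fun h => hne (a.injective h)
  obtain ⟨g, hg, hga, e1, e2⟩ := C.H.trans22 C.ha C.haa hy h2 hne h1 hy h3 h4 h5
  have hκ' : g * κ * g⁻¹ ∈ K := hKn g hg hga κ hκ
  have e3 : (g * κ * g⁻¹) y = a (κ y) := by
    have : g⁻¹ y = y := by rw [Perm.inv_eq_iff_eq, e1]
    rw [Perm.mul_apply, Perm.mul_apply, this, e2]
  set ν : Perm α := κ⁻¹ * (g * κ * g⁻¹) with hν
  have hνK : ν ∈ K := mul_mem (inv_mem hκ) hκ'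
  have e4 : ν y = a y := by
    rw [hν, Perm.mul_apply, e3, ← hcom κ hκ]; simp
  apply hy
  rw [← e4]
  apply fix_of_sq (hord ν hνK)
  rw [e4, hcom ν hνK, e4, C.aa]

namespace Syl

variable {C : Ctx G a u p r} {S : Subgroup (Perm α)} {k m : ℕ}

/-- The dihedral case is impossible. -/
theorem not_dihedral (Y : Syl C S k m) {x : Perm α} (hxS : x ∈ S) (hord : orderOf x = 2 ^ (k - 1))
    (haK : a ∉ Subgroup.zpowers x) (hax : a * x * a⁻¹ = x⁻¹) : False := by
  have hk := Y.k_ge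
  have hSG : S ≤ G := fun g hg => (Y.SX hg).1
  have hfact : Fact (Nat.Prime 2) := ⟨Nat.prime_two⟩
  obtain ⟨m', hm', hGX⟩ := C.exists_odd_G
  -- the Sylow subgroup of `G`
  have hcardSG : Nat.card (S.subgroupOf G) = 2 ^ k := by
    rw [Nat.card_congr (Subgroup.subgroupOfEquivOfLe hSG).toEquiv, Y.card]
  have hpg : IsPGroup 2 (S.subgroupOf G) := IsPGroup.of_card hcardSG
  have hidx : ¬ 2 ∣ (S.subgroupOf G).index := by
    have h1 := (S.subgroupOf G).card_mul_index
    rw [hcardSG, hGX, Y.cardX] at h1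
    have h2 : (S.subgroupOf G).index = m' * m := by
      have : 2 ^ k * (S.subgroupOf G).index = 2 ^ k * (m' * m) := by rw [h1]; ring
      exact Nat.eq_of_mul_eq_mul_left (by positivity) this
    rw [h2]
    have h3 : Odd (m' * m) := Nat.odd_mul.mpr ⟨hm', Y.odd⟩
    rw [← even_iff_two_dvd, Nat.not_even_iff_odd]
    exact h3
  let Q : Sylow 2 G := hpg.toSylow hidx
  have hQ : (Q : Subgroup G) = S.subgroupOf G := rfl
  have hiso : Nonempty ((Q : Subgroup G) ≃* DihedralGroup (2 ^ (k - 1))) := by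
    have hai : a⁻¹ = a := inv_eq_of_mul_eq_one_right C.haa
    rw [hQ]
    apply Cfsg.Agent.Lib.Dihedral.nonempty_mulEquiv (by positivity)
      (r := (⟨⟨x, hSG hxS⟩, Subgroup.mem_subgroupOf.mpr hxS⟩ : S.subgroupOf G))
      (s := (⟨⟨a, C.ha⟩, Subgroup.mem_subgroupOf.mpr Y.aS⟩ : S.subgroupOf G))
    · rw [← Subgroup.orderOf_coe, ← Subgroup.orderOf_coe]
      exact hord
    · apply Subtype.ext; apply Subtype.ext; exact C.haa
    · apply Subtype.ext; apply Subtype.ext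
      show a * x * a = x⁻¹
      rw [← hax, hai]
    · intro h
      apply haK
      obtain ⟨i, hi⟩ := Subgroup.mem_zpowers_iff.mp h
      rw [Subgroup.mem_zpowers_iff]
      exact ⟨i, congrArg (fun z : S.subgroupOf G => ((z : G) : Perm α)) hi⟩
    · rw [hcardSG, ← pow_succ']; congr 1; omega
  have ho : orderOf (⟨a, C.ha⟩ : G) = 2 := by
    rw [Subgroup.orderOf_mk]
    exact orderOf_eq_prime (by rw [pow_two, C.haa]) C.ha1
  have h2k : 2 ≤ 2 ^ (k - 1) := by
    calc 2 = 2 ^ 1 := by norm_num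
      _ ≤ 2 ^ (k - 1) := Nat.pow_le_pow_right (by norm_num) (by omega)
  obtain ⟨N, hN, hNo, j, hj⟩ := Cfsg.Agent.S0514.result Q (2 ^ (k - 1)) h2k hiso ⟨a, C.ha⟩ ho
  -- transport to permutations
  let φ : Subgroup.centralizer ({(⟨a, C.ha⟩ : G)} : Set G) →* Perm α :=
    G.subtype.comp (Subgroup.subtype _)
  have hφ : Function.Injective φ := by
    intro g h e
    exact Subtype.ext (Subtype.ext e)
  have hrange : ∀ g, g ∈ φ.range ↔ g ∈ G ∧ g * a = a * g := by
    intro g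
    constructor
    · rintro ⟨c, rfl⟩
      refine ⟨c.1.2, ?_⟩
      have h1 := Subgroup.mem_centralizer_iff.mp c.2 ⟨a, C.ha⟩ rfl
      exact (congrArg Subtype.val h1).symm
    · rintro ⟨hg, hga⟩
      refine ⟨⟨⟨g, hg⟩, ?_⟩, rfl⟩
      rw [Subgroup.mem_centralizer_iff]
      rintro _ rfl
      exact Subtype.ext hga.symm
  have hcardr : Nat.card φ.range = Nat.card N * 2 ^ j := by
    rw [← hj, N.card_mul_index]
    exact Nat.card_congr (MonoidHom.ofInjective hφ).toEquiv.symm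
  have hcardN : Nat.card (N.map φ) = Nat.card N :=
    Nat.card_congr (N.equivMapOfInjective φ hφ).toEquiv.symm
  have hNr : N.map φ ≤ φ.range := by
    rintro _ ⟨c, _, rfl⟩; exact ⟨c, rfl⟩
  have hfix := C.odd_normal_fix (N.map φ) (fun g hg => ((hrange g).mp (hNr hg)).1)
    (fun g hg => ((hrange g).mp (hNr hg)).2)
    (by
      rintro g hg hga _ ⟨c, hc, rfl⟩
      obtain ⟨d, rfl⟩ := (hrange g).mpr ⟨hg, hga⟩
      refine ⟨d * c * d⁻¹, hN.conj_mem c hc d, ?_⟩
      rw [map_mul, map_mul, map_inv])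
    (by rw [hcardN]; exact hNo)
  -- `N ≤ Dr ≤ D ≤ C(a)`
  have h1 : N.map φ ≤ C.Dr := by
    intro g hg
    obtain ⟨h2, h3⟩ := (hrange g).mp (hNr hg)
    exact ⟨⟨h2, h3, hfix g hg p C.hp⟩, hfix g hg r C.hr⟩
  have h2 : C.D ≤ φ.range := by
    intro g hg
    exact (hrange g).mpr ⟨hg.1, hg.2.1⟩
  have h3 := Subgroup.card_dvd_of_le h1
  have h4 := Subgroup.card_dvd_of_le h2
  rw [hcardr, C.card_D] at h4
  rw [hcardN] at h3
  obtain ⟨e, he⟩ := h3
  rw [he] at h4
  have h5 : Nat.card N * (e * (a.support.card - 2)) ∣ Nat.card N * 2 ^ j := by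
    have : (a.support.card - 2) * (Nat.card N * e) = Nat.card N * (e * (a.support.card - 2)) := by
      ring
    rwa [this] at h4
  have h6 : e * (a.support.card - 2) ∣ 2 ^ j := Nat.dvd_of_mul_dvd_mul_left Nat.card_pos h5
  have h7 : (a.support.card - 2) ∣ 2 ^ j := (Dvd.intro_left e rfl).trans h6
  obtain ⟨i, _, hi⟩ := (Nat.dvd_prime_pow Nat.prime_two).mp h7
  have h8 := C.mod_four
  have h9 := six_le C.H C.h8 C.ha C.ha1
  have h10 : i ≤ 1 := by
    by_contra hlt
    push Not at hlt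
    have : 2 ^ 2 ∣ 2 ^ i := pow_dvd_pow 2 hlt
    rw [← hi] at this
    omega
  have h11 : 2 ^ i ≤ 2 ^ 1 := Nat.pow_le_pow_right (by norm_num) h10
  omega

/-- Hence `u` is the only involution of `S ∩ X0`. -/
theorem unique_inv (Y : Syl C S k m) : ∀ t ∈ S, t ∈ C.X0 → t * t = 1 → t = 1 ∨ t = u := by
  rcases Y.dichotomy with h | ⟨x, h1, h2, h3, _, h5⟩
  · exact h
  · exact (Y.not_dihedral h1 h2 h3 h5).elim

end Syl

end Cfsg.Agent.H544.HallB.Ctx
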