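import Cfsg.Agent.H544.HallE
import Cfsg.Agent.Lib.KleinOrder
import Cfsg.Agent.S0215

/-!
# M. Hall's theorem on 4-transitive groups with four-point stabilizers of odd order

Part F: the degree.
-/

set_option autoImplicit false

namespace Cfsg.Agent.H544.HallB.Ctx

open Equiv Equiv.Perm MulAction Cfsg.Agent.H544.MillerC Cfsg.Agent.H544.HallA
  Cfsg.Agent.H544.HallB Cfsg.Agent.H544.HallC

variable {α : Type*} [Fintype α] [DecidableEq α]
variable {G : Subgroup (Perm α)} {a u : Perm α} {p r : α}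

theorem odd_of_mem {K : Subgroup (Perm α)} (hK : Odd (Nat.card K)) {κ : Perm α} (hκ : κ ∈ K) :
    Odd (orderOf κ) := by
  have h1 : orderOf (⟨κ, hκ⟩ : K) ∣ Nat.card K := orderOf_dvd_natCard _
  rw [Subgroup.orderOf_mk] at h1
  exact Odd.of_dvd_nat hK h1

/-- The conclusion of the Z*-theorem, in a subgroup `L` of the symmetric group. -/
theorem zstar (L S : Subgroup (Perm α)) (hSL : S ≤ L) {k m : ℕ} (hS : Nat.card S = 2 ^ k)
    (hL : Nat.card L = m * 2 ^ k) (hm : Odd m) {u : Perm α} (huS : u ∈ S) (huu : u * u = 1)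
    (hu1 : u ≠ 1) (hiso : ∀ g ∈ L, g * u * g⁻¹ ∈ S → g * u * g⁻¹ = u) :
    ∃ N : Subgroup (Perm α), N ≤ L ∧ Odd (Nat.card N) ∧ (∀ g ∈ L, ∀ ν ∈ N, g * ν * g⁻¹ ∈ N) ∧
      ∀ g ∈ L, u * g * u⁻¹ * g⁻¹ ∈ N := by
  have hfact : Fact (Nat.Prime 2) := ⟨Nat.prime_two⟩
  have hcard : Nat.card (S.subgroupOf L) = 2 ^ k := by
    rw [Nat.card_congr (Subgroup.subgroupOfEquivOfLe hSL).toEquiv, hS]
  have hpg : IsPGroup 2 (S.subgroupOf L) := IsPGroup.of_card hcard
  have hidx : ¬ 2 ∣ (S.subgroupOf L).index := by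
    have h1 := (S.subgroupOf L).card_mul_index
    rw [hcard, hL] at h1
    have h2 : (S.subgroupOf L).index = m := by
      have : 2 ^ k * (S.subgroupOf L).index = 2 ^ k * m := by rw [h1]; ring
      exact Nat.eq_of_mul_eq_mul_left (by positivity) this
    rw [h2, ← even_iff_two_dvd, Nat.not_even_iff_odd]
    exact hm
  let Q : Sylow 2 L := hpg.toSylow hidx
  have ho : orderOf (⟨u, hSL huS⟩ : L) = 2 := by
    rw [Subgroup.orderOf_mk]
    exact orderOf_eq_prime (by rw [pow_two, huu]) hu1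
  obtain ⟨N, hN, hNo, hNc⟩ := Cfsg.Agent.S0215.result Q ⟨u, hSL huS⟩ ho
    (show (⟨u, hSL huS⟩ : L) ∈ S.subgroupOf L from Subgroup.mem_subgroupOf.mpr huS)
    (by
      intro g hg
      apply Subtype.ext
      have h1 : (g * ⟨u, hSL huS⟩ * g⁻¹ : L) ∈ S.subgroupOf L := hg
      exact hiso g g.2 (Subgroup.mem_subgroupOf.mp h1))
  refine ⟨N.map L.subtype, Subgroup.map_subtype_le _, ?_, ?_, ?_⟩
  · rw [Nat.card_congr (N.equivMapOfInjective _ L.subtype_injective).toEquiv.symm]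
    exact hNo
  · rintro g hg _ ⟨ν, hν, rfl⟩
    exact ⟨⟨g, hg⟩ * ν * ⟨g, hg⟩⁻¹, hN.conj_mem ν hν _, rfl⟩
  · intro g hg
    exact ⟨_, hNc ⟨g, hg⟩, rfl⟩

/-- Conjugating an involution to another one, with prescribed values. -/
theorem conj4 (H : Hyp G) {s t : Perm α} (hs : s ∈ G) (hss : s * s = 1) (ht : t ∈ G)
    (htt : t * t = 1) {p q : Fin 4 → α} (hp : D4 (p 0) (p 1) (p 2) (p 3))
    (hq : D4 (q 0) (q 1) (q 2) (q 3)) (τ : Fin 4 → Fin 4) (hap : ∀ i, s (p i) = p (τ i))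
    (haq : ∀ i, t (q i) = q (τ i)) :
    ∃ g ∈ G, g * s * g⁻¹ = t ∧ ∀ i, g (p i) = q i := by
  obtain ⟨g, hg, h0, h1, h2, h3⟩ := H.elem4 hp hq
  have hgp : ∀ i, g (p i) = q i := by
    intro i; fin_cases i
    · exact h0
    · exact h1
    · exact h2
    · exact h3
  set b : Perm α := g * s * g⁻¹ with hb
  have hbb : b * b = 1 := by
    rw [hb]
    calc g * s * g⁻¹ * (g * s * g⁻¹) = g * (s * s) * g⁻¹ := by group
      _ = 1 := by rw [hss]; group
  have hbG : b ∈ G := mul_mem (mul_mem hg hs) (inv_mem hg)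
  have hginv : ∀ i, g⁻¹ (q i) = p i := by
    intro i; rw [← hgp i]; simp
  have hbq : ∀ i, b (q i) = t (q i) := by
    intro i
    rw [hb, Perm.mul_apply, Perm.mul_apply, hginv, hap, hgp, haq]
  have habq : ∀ i, (t * b) (q i) = q i := by
    intro i
    rw [Perm.mul_apply, hbq, ← Perm.mul_apply, htt]; rfl
  have hodd : Odd (orderOf (t * b)) :=
    H.odd_elem hq (mul_mem ht hbG) (habq 0) (habq 1) (habq 2) (habq 3)
  obtain ⟨j, hj⟩ := conj_inv hbb htt hodd
  have hzG : (t * b) ^ j ∈ G := pow_mem (mul_mem ht hbG) j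
  have hzq : ∀ i, ((t * b) ^ j) (q i) = q i := fun i => Function.IsFixedPt.perm_pow (habq i) j
  generalize (t * b) ^ j = z at hj hzG hzq
  refine ⟨z * g, mul_mem hzG hg, ?_, ?_⟩
  · calc (z * g) * s * (z * g)⁻¹ = z * b * z⁻¹ := by rw [hb]; group
        _ = t := hj
  · intro i
    rw [Perm.mul_apply, hgp, hzq]

namespace Syl

variable {C : Ctx G a u p r} {S : Subgroup (Perm α)} {k m : ℕ}

theorem card_inter (Y : Syl C S k m) : Nat.card (S ⊓ C.X0 : Subgroup (Perm α)) = 2 ^ (k - 1) := by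
  have hk := Y.k_ge
  have h1 : st S p = S ⊓ C.X0 := by
    ext g
    rw [mem_st, Subgroup.mem_inf, C.mem_X0]
    constructor
    · rintro ⟨h1, h2⟩
      obtain ⟨h3, ⟨e1, e2⟩ | ⟨e1, e2⟩⟩ := Y.SX h1
      · exact ⟨h1, h3, e1, e2⟩
      · exact absurd (e1.symm.trans h2) C.hp
    · rintro ⟨h1, h2, e1, e2⟩
      exact ⟨h1, e1⟩
  have h2 := card_st S p {p, a p} (by
    intro y
    rw [Finset.mem_insert, Finset.mem_singleton]
    constructor
    · rintro (rfl | rfl)
      · exact ⟨1, one_mem _, rfl⟩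
      · exact ⟨a, Y.aS, rfl⟩
    · rintro ⟨g, hg, rfl⟩
      obtain ⟨_, ⟨e1, _⟩ | ⟨e1, _⟩⟩ := Y.SX hg
      · exact Or.inl e1
      · exact Or.inr e1)
  rw [h1, Finset.card_pair C.hp.symm, Y.card, show k = k - 1 + 1 by omega, pow_succ'] at h2
  exact (Nat.eq_of_mul_eq_mul_left (by norm_num) h2).symm

/-- The degree is not even. -/
theorem not_even (Y : Syl C S k m) : Fintype.card α ≠ a.support.card + 2 := by
  intro hn
  have hk := Y.k_ge
  have h8 := C.h8
  have heven := C.even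
  have hap : p ≠ a p := C.hp.symm
  -- apply the Z*-theorem in the stabilizer of `p`
  have hcard : Nat.card (st G p) = ((Fintype.card α - 1) * m) * 2 ^ (k - 1) := by
    rw [card_G1 C.H h8 hap]
    have h1 : Nat.card (st (st G p) (a p)) = Nat.card C.X0 := rfl
    have h2 := C.card_X
    rw [Y.cardX, show 2 ^ k = 2 * 2 ^ (k - 1) by rw [← pow_succ']; congr 1; omega] at h2
    have h3 : Nat.card C.X0 = m * 2 ^ (k - 1) := by
      have : 2 * Nat.card C.X0 = 2 * (m * 2 ^ (k - 1)) := by rw [← h2]; ring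
      exact Nat.eq_of_mul_eq_mul_left (by norm_num) this
    rw [h1, h3]; ring
  have hodd : Odd ((Fintype.card α - 1) * m) := by
    rw [Nat.odd_mul]
    refine ⟨?_, Y.odd⟩
    obtain ⟨c, hc⟩ := heven
    rw [Nat.odd_iff]; omega
  have hX0 : C.X0 ≤ st G p := fun g hg => hg.1
  obtain ⟨N, hNL, hNo, hNn, hNc⟩ := zstar (st G p) (S ⊓ C.X0) (fun g hg => hX0 hg.2)
    Y.card_inter hcard hodd ⟨Y.uS, C.u_mem_X0⟩ C.huu C.hu1 (by
      intro g hg hgu
      have h1 : (g * u * g⁻¹) * (g * u * g⁻¹) = 1 := by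
        calc (g * u * g⁻¹) * (g * u * g⁻¹) = g * (u * u) * g⁻¹ := by group
          _ = 1 := by rw [C.huu]; group
      rcases Y.unique_inv _ hgu.1 hgu.2 h1 with h2 | h2
      · rw [conj_eq_one_iff] at h2
        exact absurd h2 C.hu1
      · exact h2)
  have hordN : ∀ ν ∈ N, Odd (orderOf ν) := fun ν hν => odd_of_mem hNo hν
  -- `N` is nontrivial
  have hN1 : ∃ ν ∈ N, ν ≠ 1 := by
    by_contra hcon
    push Not at hcon
    obtain ⟨g, hg, e1, e2⟩ := elem2 C.H h8 hap C.hrp.symm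
    have h1 := hcon _ (hNc g ⟨hg, e1⟩)
    have h2 : u * g = g * u := by
      rw [mul_inv_eq_one, mul_inv_eq_iff_eq_mul] at h1
      exact h1
    have h3 := congrArg (fun f : Perm α => f (a p)) h2
    simp only [Perm.mul_apply] at h3
    rw [C.uap, e2, C.ur] at h3
    exact C.hr h3
  -- the stabilizer of `a p` in `N` is trivial
  have hK1 : ∀ κ ∈ N, κ (a p) = a p → κ = 1 := by
    intro κ hκ hκa
    by_contra hne
    obtain ⟨y, hy⟩ : ∃ y, κ y ≠ y := by
      by_contra hcon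
      push Not at hcon
      exact hne (Equiv.ext hcon)
    have hκp : κ p = p := (hNL hκ).2
    have hyp : p ≠ y := fun h => hy (h ▸ hκp)
    have hya : a p ≠ y := fun h => hy (h ▸ hκa)
    have hyp' : p ≠ κ y := fun h => hyp (κ.injective (hκp.trans h))
    have hya' : a p ≠ κ y := fun h => hya (κ.injective (hκa.trans h))
    have h1 := card_st (st N (a p)) y (Finset.univ \ {p, a p}) (by
      intro z
      rw [Finset.mem_sdiff, Finset.mem_insert, Finset.mem_singleton, not_or]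
      constructor
      · rintro ⟨_, hz1, hz2⟩
        by_cases hzy : z = y
        · exact ⟨1, one_mem _, hzy.symm⟩
        · obtain ⟨g, hg, e1, e2, e3, e4⟩ := C.H.elem4 (a := p) (b := a p) (c := y) (d := κ y)
            (a' := p) (b' := a p) (c' := y) (d' := z)
            ⟨hap, hyp, hyp', hya, hya', hy.symm⟩
            ⟨hap, hyp, Ne.symm hz1, hya, Ne.symm hz2, Ne.symm hzy⟩
          refine ⟨g * κ * g⁻¹, ⟨hNn g ⟨hg, e1⟩ κ hκ, ?_⟩, ?_⟩
          · have h2 : g⁻¹ (a p) = a p := by rw [Perm.inv_eq_iff_eq, e2]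
            rw [Perm.mul_apply, Perm.mul_apply, h2, hκa, e2]
          · have h2 : g⁻¹ y = y := by rw [Perm.inv_eq_iff_eq, e3]
            rw [Perm.mul_apply, Perm.mul_apply, h2, e4]
      · rintro ⟨g, ⟨hg, hg2⟩, rfl⟩
        have hg1 : g p = p := (hNL hg).2
        refine ⟨Finset.mem_univ _, fun h => hyp ?_, fun h => hya ?_⟩
        · exact (g.injective (h.trans hg1.symm)).symm
        · exact (g.injective (h.trans hg2.symm)).symm)
    rw [Finset.card_sdiff_of_subset (Finset.subset_univ _), Finset.card_univ,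
      Finset.card_pair hap] at h1
    have h2 : Odd (Nat.card (st N (a p))) :=
      Odd.of_dvd_nat hNo (Subgroup.card_dvd_of_le (fun g hg => hg.1))
    rw [h1, Nat.odd_mul] at h2
    obtain ⟨c, hc⟩ := heven
    have h3 := h2.1
    rw [Nat.odd_iff] at h3
    omega
  obtain ⟨ν, hν, hν1⟩ := hN1
  have hνp : ν p = p := (hNL hν).2
  have hνa : ν (a p) ≠ a p := fun h => hν1 (hK1 ν hν h)
  set y := ν (a p) with hy
  set y' := ν⁻¹ (a p) with hy'
  have hνy' : ν y' = a p := by rw [hy']; simp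
  have hyy' : y ≠ y' := by
    intro h
    apply hνa
    apply fix_of_sq (hordN ν hν)
    rw [← hy, h, hνy']
  have h1 : p ≠ y := by
    intro h
    exact hap (ν.injective (hνp.trans h))
  have h2 : p ≠ y' := by
    intro h
    rw [← h, hνp] at hνy'
    exact hap hνy'
  have h3 : a p ≠ y' := by
    intro h
    apply hνa
    rw [← h] at hνy'
    exact hνy'
  obtain ⟨z, hz⟩ := exists_notMem h8 {p, a p, y, y'} (lt_of_le_of_lt Finset.card_le_four (by norm_num))
  simp only [Finset.mem_insert, Finset.mem_singleton, not_or] at hz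
  obtain ⟨g, hg, e1, e2, e3, e4⟩ := C.H.elem4 (a := p) (b := a p) (c := y) (d := y')
    (a' := p) (b' := a p) (c' := y) (d' := z) ⟨hap, h1, h2, Ne.symm hνa, h3, hyy'⟩
    ⟨hap, h1, Ne.symm hz.1, Ne.symm hνa, Ne.symm hz.2.1, Ne.symm hz.2.2.1⟩
  have h4 : ν⁻¹ * (g * ν * g⁻¹) = 1 := by
    apply hK1 _ (mul_mem (inv_mem hν) (hNn g ⟨hg, e1⟩ ν hν))
    have h5 : g⁻¹ (a p) = a p := by rw [Perm.inv_eq_iff_eq, e2]
    rw [Perm.mul_apply, Perm.mul_apply, Perm.mul_apply, h5, ← hy, e3, hy]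
    simp
  have h5 : ν * g = g * ν := by
    have h6 : ν = g * ν * g⁻¹ := inv_mul_eq_one.mp h4
    calc ν * g = (g * ν * g⁻¹) * g := by rw [← h6]
      _ = g * ν := by group
  have h6 : g y' = y' := by
    apply ν.injective
    rw [← Perm.mul_apply, h5, Perm.mul_apply, hνy', e2]
  rw [e4] at h6
  exact hz.2.2.2 h6

end Syl

end Cfsg.Agent.H544.HallB.Ctx
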