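import Cfsg.Agent.H544.HallF

/-!
# M. Hall's theorem on 4-transitive groups with four-point stabilizers of odd order

Part G: the degree is eleven and the order is 7920.
-/

set_option autoImplicit false

namespace Cfsg.Agent.H544.HallB.Ctx

open Equiv Equiv.Perm MulAction Cfsg.Agent.H544.MillerC Cfsg.Agent.H544.HallA
  Cfsg.Agent.H544.HallB Cfsg.Agent.H544.HallC

variable {α : Type*} [Fintype α] [DecidableEq α]
variable {G : Subgroup (Perm α)} {a u : Perm α} {p r : α}

theorem X0_normal (C : Ctx G a u p r) {g h : Perm α} (hg : g ∈ C.X) (hh : h ∈ C.X0) :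
    g * h * g⁻¹ ∈ C.X0 := by
  rw [C.mem_X0] at hh ⊢
  obtain ⟨h1, h2, h3⟩ := hh
  rcases hg with ⟨hg, ⟨e1, e2⟩ | ⟨e1, e2⟩⟩
  · have e3 : g⁻¹ p = p := by rw [Perm.inv_eq_iff_eq, e1]
    have e4 : g⁻¹ (a p) = a p := by rw [Perm.inv_eq_iff_eq, e2]
    refine ⟨mul_mem (mul_mem hg h1) (inv_mem hg), ?_, ?_⟩
    · rw [Perm.mul_apply, Perm.mul_apply, e3, h2, e1]
    · rw [Perm.mul_apply, Perm.mul_apply, e4, h3, e2]
  · have e3 : g⁻¹ (a p) = p := by rw [Perm.inv_eq_iff_eq, e1]
    have e4 : g⁻¹ p = a p := by rw [Perm.inv_eq_iff_eq, e2]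
    refine ⟨mul_mem (mul_mem hg h1) (inv_mem hg), ?_, ?_⟩
    · rw [Perm.mul_apply, Perm.mul_apply, e4, h3, e2]
    · rw [Perm.mul_apply, Perm.mul_apply, e3, h2, e1]

/-- An odd order subgroup of `X` is contained in `X0`. -/
theorem odd_le_X0 (C : Ctx G a u p r) {ν : Perm α} (hν : ν ∈ C.X) (h : Odd (orderOf ν)) :
    ν ∈ C.X0 := by
  obtain ⟨j, hj⟩ := h
  have h1 : ν = ν ^ (j + 1) * ν ^ (j + 1) := by
    rw [← pow_add, show j + 1 + (j + 1) = (2 * j + 1) + 1 by ring, ← hj, pow_succ,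
      pow_orderOf_eq_one, one_mul]
  rw [h1]
  exact C.sq_mem_X0 (pow_mem hν _)

/-- Fixed points of an involution, when there are three of them. -/
theorem fix_three (C : Ctx G a u p r) (hn : Fintype.card α = a.support.card + 3) {t : Perm α}
    (ht : t ∈ G) (htt : t * t = 1) (ht1 : t ≠ 1) : (t.supportᶜ).card = 3 := by
  rw [Finset.card_compl, ← card_support_eq C.H C.h8 C.ha C.haa C.ha1 ht htt ht1]
  omega

theorem exists_third {t : Perm α} (h3 : (t.supportᶜ).card = 3) {x y : α} (hx : t x = x)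
    (hy : t y = y) (hxy : x ≠ y) :
    ∃ e, e ≠ x ∧ e ≠ y ∧ t e = e ∧ ∀ z, t z = z → z = x ∨ z = y ∨ z = e := by
  have hmem : ∀ z, z ∈ t.supportᶜ ↔ t z = z := by
    intro z
    rw [Finset.mem_compl, Equiv.Perm.notMem_support]
  have hsub : ({x, y} : Finset α) ⊆ t.supportᶜ := by
    intro z hz
    rw [Finset.mem_insert, Finset.mem_singleton] at hz
    rw [hmem]
    rcases hz with rfl | rfl
    · exact hx
    · exact hy
  have h1 : (t.supportᶜ \ {x, y}).card = 1 := by
    rw [Finset.card_sdiff_of_subset hsub, h3, Finset.card_pair hxy]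
  obtain ⟨e, he⟩ := Finset.card_eq_one.mp h1
  have h2 : e ∈ t.supportᶜ \ {x, y} := by rw [he]; exact Finset.mem_singleton_self e
  rw [Finset.mem_sdiff, hmem, Finset.mem_insert, Finset.mem_singleton, not_or] at h2
  refine ⟨e, h2.2.1, h2.2.2, h2.1, ?_⟩
  intro z hz
  by_cases h4 : z ∈ ({x, y} : Finset α)
  · rw [Finset.mem_insert, Finset.mem_singleton] at h4
    rcases h4 with h4 | h4
    · exact Or.inl h4
    · exact Or.inr (Or.inl h4)
  · have h5 : z ∈ t.supportᶜ \ {x, y} := Finset.mem_sdiff.mpr ⟨(hmem z).mpr hz, h4⟩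
    rw [he, Finset.mem_singleton] at h5
    exact Or.inr (Or.inr h5)

/-- The fixed points of `a`, `u` and `a u`. -/
structure Fix3 (C : Ctx G a u p r) (e f f' : α) : Prop where
  ep : e ≠ p
  eap : e ≠ a p
  er : e ≠ r
  ear : e ≠ a r
  ef : e ≠ f
  ef' : e ≠ f'
  ff' : f ≠ f'
  ue : u e = e
  ae : a e = e
  af : a f = f
  af' : a f' = f'
  uf : u f = f'
  uf' : u f' = f
  fixu : ∀ z, u z = z → z = p ∨ z = a p ∨ z = e
  fixa : ∀ z, a z = z → z = e ∨ z = f ∨ z = f'
  fixau : ∀ z, a (u z) = z → z = r ∨ z = a r ∨ z = e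

theorem au_inv (C : Ctx G a u p r) : a * u * (a * u) = 1 := by
  calc a * u * (a * u) = a * (u * a) * u := by group
    _ = (a * a) * (u * u) := by rw [C.hua]; group
    _ = 1 := by rw [C.haa, C.huu, one_mul]

theorem au1 (C : Ctx G a u p r) : a * u ≠ 1 := by
  intro h
  have h1 : (a * u) p = p := by rw [h]; rfl
  rw [Perm.mul_apply, C.up] at h1
  exact C.hp h1

theorem exists_fix3 (C : Ctx G a u p r) (hn : Fintype.card α = a.support.card + 3) :
    ∃ e f f', Fix3 C e f f' := by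
  obtain ⟨e, e1, e2, e3, e4⟩ := exists_third (C.fix_three hn C.hu C.huu C.hu1) C.up C.uap C.hp.symm
  have hae : a e = e := by
    rcases e4 (a e) (by rw [C.ua, e3]) with h | h | h
    · exact absurd (by rw [← h, C.aa]) e2
    · exact absurd (a.injective h) e1
    · exact h
  obtain ⟨t, ht⟩ : ∃ t, t ≠ e ∧ a t = t := by
    have h1 : 1 < (a.supportᶜ).card := by rw [C.fix_three hn C.ha C.haa C.ha1]; norm_num
    obtain ⟨x, hx, y, hy, hxy⟩ := Finset.one_lt_card.mp h1
    rw [Finset.mem_compl, Equiv.Perm.notMem_support] at hx hy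
    by_cases hxe : x = e
    · exact ⟨y, fun h => hxy (hxe.trans h.symm), hy⟩
    · exact ⟨x, hxe, hx⟩
  obtain ⟨hte, hat⟩ := ht
  obtain ⟨t', h1, h2, h3, h4⟩ := exists_third (C.fix_three hn C.ha C.haa C.ha1) hae hat hte.symm
  have hut : u t ≠ t := by
    intro h
    rcases e4 t h with h | h | h
    · rw [h] at hat; exact C.hp hat
    · rw [h, C.aa] at hat; exact C.hp hat.symm
    · exact hte h
  have hut2 : u t = t' := by
    rcases h4 (u t) (by rw [← C.ua, hat]) with h | h | h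
    · exfalso
      apply hte
      rw [← C.uu t, h, e3]
    · exact absurd h hut
    · exact h
  have hr' : (a * u) r = r := by rw [Perm.mul_apply, C.ur, C.aa]
  have har' : (a * u) (a r) = a r := by rw [Perm.mul_apply, C.uar]
  have her : e ≠ r := by
    rintro rfl; exact C.hr hae
  have hear : e ≠ a r := by
    intro h
    rw [h, C.aa] at hae
    exact C.hr hae.symm
  obtain ⟨e', g1, g2, g3, g4⟩ := exists_third
    (C.fix_three hn (mul_mem C.ha C.hu) C.au_inv C.au1) hr' har' C.hr.symm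
  have hee' : e = e' := by
    rcases g4 e (by rw [Perm.mul_apply, e3, hae]) with h | h | h
    · exact absurd h her
    · exact absurd h hear
    · exact h
  refine ⟨e, t, t', ?_⟩
  exact
    { ep := e1
      eap := e2
      er := her
      ear := hear
      ef := hte.symm
      ef' := h1.symm
      ff' := h2.symm
      ue := e3
      ae := hae
      af := hat
      af' := h3
      uf := hut2
      uf' := by rw [← hut2, C.uu]
      fixu := e4
      fixa := h4
      fixau := by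
        intro z hz
        rw [hee']
        exact g4 z (by rw [Perm.mul_apply, hz]) }

/-- The normal subgroup `N` of odd order. -/
structure Nor (C : Ctx G a u p r) (N : Subgroup (Perm α)) : Prop where
  le : N ≤ C.X0
  odd : Odd (Nat.card N)
  nor : ∀ g ∈ C.X, ∀ ν ∈ N, g * ν * g⁻¹ ∈ N
  com : ∀ g ∈ C.X, u * g * u⁻¹ * g⁻¹ ∈ N

theorem Syl.exists_nor {C : Ctx G a u p r} {S : Subgroup (Perm α)} {k m : ℕ} (Y : Syl C S k m) :
    ∃ N, Nor C N := by
  obtain ⟨N, hNL, hNo, hNn, hNc⟩ := zstar C.X S Y.SX Y.card Y.cardX Y.odd Y.uS C.huu C.hu1 (by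
      intro g hg hgu
      have h1 : (g * u * g⁻¹) * (g * u * g⁻¹) = 1 := by
        calc (g * u * g⁻¹) * (g * u * g⁻¹) = g * (u * u) * g⁻¹ := by group
          _ = 1 := by rw [C.huu]; group
      rcases Y.unique_inv _ hgu (C.X0_normal hg C.u_mem_X0) h1 with h2 | h2
      · rw [conj_eq_one_iff] at h2
        exact absurd h2 C.hu1
      · exact h2)
  exact ⟨N, fun ν hν => C.odd_le_X0 (hNL hν) (odd_of_mem hNo hν), hNo, hNn, hNc⟩

namespace Nor

variable {C : Ctx G a u p r} {N : Subgroup (Perm α)}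

theorem ne_one (Z : Nor C N) : ∃ ν ∈ N, ∃ y, ν y ≠ y := by
  by_contra hcon
  push Not at hcon
  have hcon' : ∀ ν ∈ N, ν = 1 := fun ν hν => Equiv.ext (hcon ν hν)
  -- `u` commutes with `X0`
  obtain ⟨w, hw⟩ := exists_notMem C.h8 {p, a p, r, a r}
    (lt_of_le_of_lt Finset.card_le_four (by norm_num))
  simp only [Finset.mem_insert, Finset.mem_singleton, not_or] at hw
  obtain ⟨d1, d2, d3, d4, d5, d6⟩ := C.d4
  obtain ⟨g, hg, e1, e2, e3, e4⟩ := C.H.elem4 (a := p) (b := a p) (c := r) (d := a r)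
    (a' := p) (b' := a p) (c' := r) (d' := w) ⟨d1, d2, d3, d4, d5, d6⟩
    ⟨d1, d2, Ne.symm hw.1, d4, Ne.symm hw.2.1, Ne.symm hw.2.2.1⟩
  have h1 := hcon' _ (Z.com g ⟨hg, Or.inl ⟨e1, e2⟩⟩)
  have h2 : u * g = g * u := by
    rw [mul_inv_eq_one, mul_inv_eq_iff_eq_mul] at h1
    exact h1
  have h3 := congrArg (fun f : Perm α => f r) h2
  simp only [Perm.mul_apply] at h3
  rw [e3, C.ur, e4] at h3
  exact hw.2.2.2 h3.symm

theorem trans (Z : Nor C N) {y z : α} (hy1 : y ≠ p) (hy2 : y ≠ a p) (hz1 : z ≠ p)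
    (hz2 : z ≠ a p) : ∃ ν ∈ N, ν y = z := by
  by_cases hyz : z = y
  · exact ⟨1, one_mem _, hyz.symm⟩
  obtain ⟨ν, hν, x, hx⟩ := Z.ne_one
  have h1 := C.mem_X0.mp (Z.le hν)
  have hxp : x ≠ p := by rintro rfl; exact hx h1.2.1
  have hxap : x ≠ a p := by rintro rfl; exact hx h1.2.2
  have hxp' : ν x ≠ p := by
    intro h; apply hxp; apply ν.injective; rw [h, h1.2.1]
  have hxap' : ν x ≠ a p := by
    intro h; apply hxap; apply ν.injective; rw [h, h1.2.2]
  obtain ⟨g, hg, e1, e2, e3, e4⟩ := C.H.elem4 (a := p) (b := a p) (c := x) (d := ν x)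
    (a' := p) (b' := a p) (c' := y) (d' := z)
    ⟨C.hp.symm, hxp.symm, hxp'.symm, hxap.symm, hxap'.symm, hx.symm⟩
    ⟨C.hp.symm, hy1.symm, hz1.symm, hy2.symm, hz2.symm, Ne.symm hyz⟩
  refine ⟨g * ν * g⁻¹, Z.nor g ⟨hg, Or.inl ⟨e1, e2⟩⟩ ν hν, ?_⟩
  have h2 : g⁻¹ y = x := by rw [Perm.inv_eq_iff_eq, e3]
  rw [Perm.mul_apply, Perm.mul_apply, h2, e4]

/-- Glauberman's argument. -/
theorem glaub (Z : Nor C N) {t : Perm α} (ht : t ∈ C.X) (htt : t * t = 1) {y z : α}
    (hy1 : y ≠ p) (hy2 : y ≠ a p) (hz1 : z ≠ p) (hz2 : z ≠ a p) (hy : t y = y) (hz : t z = z) :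
    ∃ ν ∈ N, ν * t = t * ν ∧ ν y = z := by
  obtain ⟨g, hg, hgy⟩ := Z.trans hy1 hy2 hz1 hz2
  set b : Perm α := g * t * g⁻¹ with hb
  have hbb : b * b = 1 := by
    rw [hb]
    calc g * t * g⁻¹ * (g * t * g⁻¹) = g * (t * t) * g⁻¹ := by group
      _ = 1 := by rw [htt]; group
  have hti : t⁻¹ = t := inv_eq_of_mul_eq_one_right htt
  have htb : t * b ∈ N := by
    have h1 : t * b = (t * g * t⁻¹) * g⁻¹ := by rw [hb, hti]; group
    rw [h1]
    exact mul_mem (Z.nor t ht g hg) (inv_mem hg)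
  obtain ⟨j, hj⟩ := conj_inv hbb htt (odd_of_mem Z.odd htb)
  have hbz : b z = z := by
    have h2 : g⁻¹ z = y := by rw [Perm.inv_eq_iff_eq, hgy]
    rw [hb, Perm.mul_apply, Perm.mul_apply, h2, hy, hgy]
  have htbz : (t * b) z = z := by rw [Perm.mul_apply, hbz, hz]
  have hzz : ((t * b) ^ j) z = z := Function.IsFixedPt.perm_pow htbz j
  have hzN : (t * b) ^ j ∈ N := pow_mem htb j
  generalize (t * b) ^ j = c at hj hzz hzN
  refine ⟨c * g, mul_mem hzN hg, ?_, ?_⟩
  · have h4 : (c * g) * t * (c * g)⁻¹ = t := by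
      calc (c * g) * t * (c * g)⁻¹ = c * b * c⁻¹ := by rw [hb]; group
        _ = t := hj
    calc c * g * t = (c * g) * t * (c * g)⁻¹ * (c * g) := by group
      _ = t * (c * g) := by rw [h4]
  · rw [Perm.mul_apply, hgy, hzz]

theorem mem_inf_cent {K : Subgroup (Perm α)} {t g : Perm α} :
    g ∈ K ⊓ Subgroup.centralizer {t} ↔ g ∈ K ∧ g * t = t * g := by
  rw [Subgroup.mem_inf, Subgroup.mem_centralizer_singleton_iff]

/-- The degree is eleven. -/
theorem degree (Z : Nor C N) (hn : Fintype.card α = a.support.card + 3) {e f f' : α}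
    (F : Fix3 C e f f') : Fintype.card α = 11 := by
  have h8 := C.h8
  have hNfix : ∀ ν ∈ N, ν p = p ∧ ν (a p) = a p := fun ν hν => (C.mem_X0.mp (Z.le hν)).2
  have h1 := card_st N e (Finset.univ \ {p, a p}) (by
    intro z
    rw [Finset.mem_sdiff, Finset.mem_insert, Finset.mem_singleton, not_or]
    constructor
    · rintro ⟨_, hz1, hz2⟩
      exact Z.trans F.ep F.eap hz1 hz2
    · rintro ⟨g, hg, rfl⟩
      obtain ⟨g1, g2⟩ := hNfix g hg
      refine ⟨Finset.mem_univ _, fun h => F.ep ?_, fun h => F.eap ?_⟩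
      · exact g.injective (h.trans g1.symm)
      · exact g.injective (h.trans g2.symm))
  rw [Finset.card_sdiff_of_subset (Finset.subset_univ _), Finset.card_univ,
    Finset.card_pair C.hp.symm] at h1
  have hfp : f ≠ p := by rintro rfl; exact C.hp F.af
  have hfap : f ≠ a p := by
    rintro rfl
    have := F.af
    rw [C.aa] at this
    exact C.hp this.symm
  have hf'p : f' ≠ p := by rintro rfl; exact C.hp F.af'
  have hf'ap : f' ≠ a p := by
    rintro rfl
    have := F.af'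
    rw [C.aa] at this
    exact C.hp this.symm
  have harp : a r ≠ p := by
    intro h; apply C.hrp2; rw [← h, C.aa]
  have harap : a r ≠ a p := fun h => C.hrp (a.injective h)
  have hauX : a * u ∈ C.X := mul_mem C.a_mem_X (C.X0_le C.u_mem_X0)
  -- the centralizer of `a` in `N`
  have h2 := card_st (N ⊓ Subgroup.centralizer {a}) e {e, f, f'} (by
    intro z
    rw [Finset.mem_insert, Finset.mem_insert, Finset.mem_singleton]
    constructor
    · intro hz
      obtain ⟨hz1, hz2, hz3⟩ : z ≠ p ∧ z ≠ a p ∧ a z = z := by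
        rcases hz with rfl | rfl | rfl
        · exact ⟨F.ep, F.eap, F.ae⟩
        · exact ⟨hfp, hfap, F.af⟩
        · exact ⟨hf'p, hf'ap, F.af'⟩
      obtain ⟨ν, hν, h3, h4⟩ := Z.glaub C.a_mem_X C.haa F.ep F.eap hz1 hz2 F.ae hz3
      exact ⟨ν, mem_inf_cent.mpr ⟨hν, h3⟩, h4⟩
    · rintro ⟨g, hg, rfl⟩
      rw [mem_inf_cent] at hg
      apply F.fixa
      rw [← Perm.mul_apply, ← hg.2, Perm.mul_apply, F.ae])
  rw [Finset.card_eq_three.mpr ⟨e, f, f', F.ef, F.ef', F.ff', rfl⟩] at h2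
  -- the centralizer of `a u` in `N`
  have h3 := card_st (N ⊓ Subgroup.centralizer {a * u}) e {r, a r, e} (by
    intro z
    rw [Finset.mem_insert, Finset.mem_insert, Finset.mem_singleton]
    constructor
    · intro hz
      obtain ⟨hz1, hz2, hz3⟩ : z ≠ p ∧ z ≠ a p ∧ (a * u) z = z := by
        rcases hz with rfl | rfl | rfl
        · exact ⟨C.hrp, C.hrp2, by rw [Perm.mul_apply, C.ur, C.aa]⟩
        · exact ⟨harp, harap, by rw [Perm.mul_apply, C.uar]⟩
        · exact ⟨F.ep, F.eap, by rw [Perm.mul_apply, F.ue, F.ae]⟩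
      obtain ⟨ν, hν, h3, h4⟩ := Z.glaub hauX C.au_inv F.ep F.eap hz1 hz2
        (by rw [Perm.mul_apply, F.ue, F.ae]) hz3
      exact ⟨ν, mem_inf_cent.mpr ⟨hν, h3⟩, h4⟩
    · rintro ⟨g, hg, rfl⟩
      rw [mem_inf_cent] at hg
      apply F.fixau
      rw [← Perm.mul_apply, ← Perm.mul_apply, ← hg.2, Perm.mul_apply, Perm.mul_apply, F.ue, F.ae])
  rw [Finset.card_eq_three.mpr ⟨r, a r, e, C.hr.symm, F.er.symm, F.ear.symm, rfl⟩] at h3
  set K := st N e with hK
  have e1 : st (N ⊓ Subgroup.centralizer {a}) e = K ⊓ Subgroup.centralizer {a} := by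
    ext g
    rw [mem_st, mem_inf_cent, mem_inf_cent, hK, mem_st]
    tauto
  have e2 : st (N ⊓ Subgroup.centralizer {a * u}) e = K ⊓ Subgroup.centralizer {a * u} := by
    ext g
    rw [mem_st, mem_inf_cent, mem_inf_cent, hK, mem_st]
    tauto
  have hfixe : ∀ g ∈ N, g * u = u * g → g e = e := by
    intro g hg hgu
    obtain ⟨g1, g2⟩ := hNfix g hg
    rcases F.fixu (g e) (by rw [← Perm.mul_apply, ← hgu, Perm.mul_apply, F.ue]) with h | h | h
    · exact absurd (g.injective (h.trans g1.symm)) F.ep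
    · exact absurd (g.injective (h.trans g2.symm)) F.eap
    · exact h
  have e3 : N ⊓ Subgroup.centralizer {u} = K ⊓ Subgroup.centralizer {u} := by
    ext g
    rw [mem_inf_cent, mem_inf_cent, hK, mem_st]
    constructor
    · rintro ⟨h4, h5⟩; exact ⟨⟨h4, hfixe g h4 h5⟩, h5⟩
    · rintro ⟨⟨h4, _⟩, h5⟩; exact ⟨h4, h5⟩
  have e4 : N ⊓ Subgroup.centralizer {a} ⊓ Subgroup.centralizer {u} =
      K ⊓ Subgroup.centralizer {a} ⊓ Subgroup.centralizer {u} := by
    ext g
    rw [mem_inf_cent, mem_inf_cent, mem_inf_cent, mem_inf_cent, hK, mem_st]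
    constructor
    · rintro ⟨⟨h4, h6⟩, h5⟩; exact ⟨⟨⟨h4, hfixe g h4 h5⟩, h6⟩, h5⟩
    · rintro ⟨⟨⟨h4, _⟩, h6⟩, h5⟩; exact ⟨⟨h4, h6⟩, h5⟩
  have hKN : K ≤ N := fun g hg => hg.1
  have hKo : Odd (Nat.card K) := Odd.of_dvd_nat Z.odd (Subgroup.card_dvd_of_le hKN)
  have huX : u ∈ C.X := C.X0_le C.u_mem_X0
  have hai : a⁻¹ = a := inv_eq_of_mul_eq_one_right C.haa
  have hui : u⁻¹ = u := inv_eq_of_mul_eq_one_right C.huu
  have k1 := Cfsg.Agent.Lib.KleinOrder.card_klein (a := a) (b := u) N Z.odd C.haa C.huu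
    C.hua.symm (fun ν hν => Z.nor a C.a_mem_X ν hν) (fun ν hν => Z.nor u huX ν hν)
  have k2 := Cfsg.Agent.Lib.KleinOrder.card_klein (a := a) (b := u) K hKo C.haa C.huu
    C.hua.symm (fun ν hν => ⟨Z.nor a C.a_mem_X ν hν.1, by
      rw [hai, Perm.mul_apply, Perm.mul_apply, F.ae, hν.2, F.ae]⟩)
    (fun ν hν => ⟨Z.nor u huX ν hν.1, by
      rw [hui, Perm.mul_apply, Perm.mul_apply, F.ue, hν.2, F.ue]⟩)
  rw [e4, e3, h2, h3, e1, e2] at k1
  set A := Nat.card (K ⊓ Subgroup.centralizer {a} : Subgroup (Perm α))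
  set B := Nat.card (K ⊓ Subgroup.centralizer {u} : Subgroup (Perm α))
  set D := Nat.card (K ⊓ Subgroup.centralizer {a * u} : Subgroup (Perm α))
  have hE : 0 < Nat.card (K ⊓ Subgroup.centralizer {a} ⊓ Subgroup.centralizer {u} :
      Subgroup (Perm α)) := Nat.card_pos
  set E := Nat.card (K ⊓ Subgroup.centralizer {a} ⊓ Subgroup.centralizer {u} : Subgroup (Perm α))
  have hNK : Nat.card N = 9 * Nat.card K := by
    have : Nat.card N * E ^ 2 = 9 * Nat.card K * E ^ 2 := by
      rw [k1, mul_assoc 9, k2]; ring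
    exact Nat.eq_of_mul_eq_mul_right (by positivity) this
  rw [hNK] at h1
  have hKpos : 0 < Nat.card K := Nat.card_pos
  have h9 : 9 = Fintype.card α - 2 := Nat.eq_of_mul_eq_mul_right hKpos h1
  omega

end Nor

theorem Dr_trivial (C : Ctx G a u p r) (hn : Fintype.card α = 11) (hs : a.support.card = 8)
    {h : Perm α} (hh : h ∈ C.Dr) : h = 1 := by
  by_contra hne
  have h6 := six_le C.H C.h8 hh.1.1 hne
  have hp : h p = p := hh.1.2.2
  have hap : h (a p) = a p := C.D_ap hh.1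
  have hr : h r = r := hh.2
  have har : h (a r) = a r := by rw [C.D_comm hh.1, hr]
  obtain ⟨d1, d2, d3, d4, d5, d6⟩ := C.d4
  have hcom : ∀ x, h (a x) = a (h x) := C.D_comm hh.1
  have hodd : Odd (orderOf h) := odd_of_mem C.Dr_odd hh
  set W : Finset α := a.support \ {p, a p, r, a r} with hW
  have haap : a (a p) ≠ a p := fun h => C.hp (a.injective h)
  have haar : a (a r) ≠ a r := fun h => C.hr (a.injective h)
  have h4 : ({p, a p, r, a r} : Finset α).card = 4 :=
    Finset.card_eq_four.mpr ⟨p, a p, r, a r, d1, d2, d3, d4, d5, d6, rfl⟩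
  have hWc : W.card = 4 := by
    rw [hW, Finset.card_sdiff_of_subset, hs, h4]
    intro x hx
    simp only [Finset.mem_insert, Finset.mem_singleton] at hx
    rw [Equiv.Perm.mem_support]
    rcases hx with rfl | rfl | rfl | rfl
    · exact C.hp
    · exact haap
    · exact C.hr
    · exact haar
  have hmemW : ∀ x, x ∈ W ↔ a x ≠ x ∧ x ≠ p ∧ x ≠ a p ∧ x ≠ r ∧ x ≠ a r := by
    intro x
    rw [hW, Finset.mem_sdiff, Equiv.Perm.mem_support]
    simp only [Finset.mem_insert, Finset.mem_singleton, not_or]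
  have hW1 : ∀ x, h x ∈ W ↔ x ∈ W := by
    intro x
    rw [hmemW, hmemW, ← hcom, h.injective.ne_iff]
    have g1 : h x = p ↔ x = p := by
      constructor
      · intro e; apply h.injective; rw [e, hp]
      · rintro rfl; exact hp
    have g2 : h x = a p ↔ x = a p := by
      constructor
      · intro e; apply h.injective; rw [e, hap]
      · rintro rfl; exact hap
    have g3 : h x = r ↔ x = r := by
      constructor
      · intro e; apply h.injective; rw [e, hr]
      · rintro rfl; exact hr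
    have g4 : h x = a r ↔ x = a r := by
      constructor
      · intro e; apply h.injective; rw [e, har]
      · rintro rfl; exact har
    simp only [ne_eq, g1, g2, g3, g4]
  obtain ⟨z, hzW, hz⟩ : ∃ z ∈ W, h z = z := by
    set σ : Perm W := h.subtypePerm hW1 with hσ
    have h1 : orderOf σ ∣ orderOf h := by
      apply orderOf_dvd_of_pow_eq_one
      rw [hσ, Equiv.Perm.subtypePerm_pow]
      apply Equiv.ext
      intro x
      apply Subtype.ext
      rw [Equiv.Perm.subtypePerm_apply]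
      simp [pow_orderOf_eq_one]
    have h2 : orderOf σ ∣ 24 := by
      have h3 : orderOf σ ∣ Nat.card (Perm W) := orderOf_dvd_natCard σ
      rw [Nat.card_perm, Nat.card_eq_fintype_card, Fintype.card_coe, hWc] at h3
      exact h3.trans (by norm_num [Nat.factorial])
    have h3 : Odd (orderOf σ) := Odd.of_dvd_nat hodd h1
    have h4' : orderOf σ ∣ 3 := by
      have h5 : Nat.Coprime (orderOf σ) 8 := by
        rw [show 8 = 2 ^ 3 by norm_num]
        exact Nat.Coprime.pow_right 3 ((Nat.coprime_two_right).mpr h3)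
      rw [show 24 = 8 * 3 by norm_num] at h2
      exact h5.dvd_of_dvd_mul_left h2
    have hσ3 : σ ^ 3 ^ 1 = 1 := by
      rw [pow_one]
      exact orderOf_dvd_iff_pow_eq_one.mp h4'
    have : Fact (Nat.Prime 3) := ⟨Nat.prime_three⟩
    obtain ⟨z, hz⟩ := Equiv.Perm.exists_fixed_point_of_prime (p := 3) (n := 1) (by
      rw [Fintype.card_coe, hWc]; norm_num) hσ3
    exact ⟨z, z.2, congrArg Subtype.val hz⟩
  have hzW' := (hmemW z).mp hzW
  obtain ⟨g1, g2, g3, g4, g5⟩ := hzW'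
  have haz : h (a z) = a z := by rw [hcom, hz]
  have hsub : insert z (insert (a z) ({p, a p, r, a r} : Finset α)) ⊆ h.supportᶜ := by
    intro x hx
    rw [Finset.mem_compl, Equiv.Perm.notMem_support]
    simp only [Finset.mem_insert, Finset.mem_singleton] at hx
    rcases hx with rfl | rfl | rfl | rfl | rfl | rfl <;> assumption
  have haz1 : a z ≠ p := by intro h; apply g3; rw [← h, C.aa]
  have haz2 : a z ≠ a p := fun h => g2 (a.injective h)
  have haz3 : a z ≠ r := by intro h; apply g5; rw [← h, C.aa]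
  have haz4 : a z ≠ a r := fun h => g4 (a.injective h)
  have hc := Finset.card_le_card hsub
  rw [Finset.card_insert_of_notMem (by
      simp only [Finset.mem_insert, Finset.mem_singleton, not_or]
      exact ⟨g1.symm, g2, g3, g4, g5⟩), Finset.card_insert_of_notMem (by
      simp only [Finset.mem_insert, Finset.mem_singleton, not_or]
      exact ⟨haz1, haz2, haz3, haz4⟩), h4, Finset.card_compl, hn] at hc
  omega

/-- Elements commuting with `a` and fixing `p`, `e`, `f` are trivial. -/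
theorem rigid {C : Ctx G a u p r} {N : Subgroup (Perm α)} (Z : Nor C N)
    (hn : Fintype.card α = 11) (hs : a.support.card = 8) {e f f' : α} (F : Fix3 C e f f') :
    ∀ h ∈ G, h * a = a * h → h p = p → h e = e → h f = f → h = 1 := by
  have hDr : Nat.card C.Dr = 1 := by
    rw [Subgroup.card_eq_one, Subgroup.eq_bot_iff_forall]
    intro h hh
    exact C.Dr_trivial hn hs hh
  have hD := C.card_D
  rw [hDr, hs] at hD
  have hfixa : ∀ g ∈ C.D, ∀ z, a z = z → a (g z) = g z := by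
    intro g hg z hz
    rw [← C.D_comm hg, hz]
  have huD : u ∈ C.D := ⟨C.hu, C.hua, C.up⟩
  have hfp : f ≠ p := by rintro rfl; exact C.hp F.af
  have hfap : f ≠ a p := by
    rintro rfl
    have := F.af
    rw [C.aa] at this
    exact C.hp this.symm
  have hf'p : f' ≠ p := by rintro rfl; exact C.hp F.af'
  have hf'ap : f' ≠ a p := by
    rintro rfl
    have := F.af'
    rw [C.aa] at this
    exact C.hp this.symm
  have h1 := card_st C.D e {e, f, f'} (by
    intro z
    rw [Finset.mem_insert, Finset.mem_insert, Finset.mem_singleton]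
    constructor
    · intro hz
      obtain ⟨hz1, hz2, hz3⟩ : z ≠ p ∧ z ≠ a p ∧ a z = z := by
        rcases hz with rfl | rfl | rfl
        · exact ⟨F.ep, F.eap, F.ae⟩
        · exact ⟨hfp, hfap, F.af⟩
        · exact ⟨hf'p, hf'ap, F.af'⟩
      obtain ⟨ν, hν, h3, h4⟩ := Z.glaub C.a_mem_X C.haa F.ep F.eap hz1 hz2 F.ae hz3
      have h5 := C.mem_X0.mp (Z.le hν)
      exact ⟨ν, ⟨h5.1, h3, h5.2.1⟩, h4⟩
    · rintro ⟨g, hg, rfl⟩
      exact F.fixa _ (hfixa g hg e F.ae))
  rw [Finset.card_eq_three.mpr ⟨e, f, f', F.ef, F.ef', F.ff', rfl⟩, hD] at h1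
  have h2 := card_st (st C.D e) f {f, f'} (by
    intro z
    rw [Finset.mem_insert, Finset.mem_singleton]
    constructor
    · rintro (rfl | rfl)
      · exact ⟨1, one_mem _, rfl⟩
      · exact ⟨u, ⟨huD, F.ue⟩, F.uf⟩
    · rintro ⟨g, ⟨hg, hge⟩, rfl⟩
      rcases F.fixa _ (hfixa g hg f F.af) with h | h | h
      · exact absurd (g.injective (hge.trans h.symm)) F.ef
      · exact Or.inl h
      · exact Or.inr h)
  rw [Finset.card_pair F.ff'] at h2
  have h3 : Nat.card (st (st C.D e) f) = 1 := by omega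
  rw [Subgroup.card_eq_one, Subgroup.eq_bot_iff_forall] at h3
  intro h hG hha hp he hf
  exact h3 h ⟨⟨⟨hG, hha, hp⟩, he⟩, hf⟩

/-- The order of `G`. -/
theorem order {C : Ctx G a u p r} {N : Subgroup (Perm α)} (Z : Nor C N)
    (hn : Fintype.card α = 11) (hs : a.support.card = 8) {e f f' : α} (F : Fix3 C e f f') :
    Nat.card G = 7920 := by
  have hrig := rigid Z hn hs F
  obtain ⟨d1, d2, d3, d4, d5, d6⟩ := C.d4
  have hfp : f ≠ p := by rintro rfl; exact C.hp F.af
  have hfap : f ≠ a p := by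
    rintro rfl
    have := F.af
    rw [C.aa] at this
    exact C.hp this.symm
  set L := st (st (st (st G p) (a p)) r) (a r) with hL
  have hmem : ∀ {g}, g ∈ L ↔ g ∈ G ∧ g p = p ∧ g (a p) = a p ∧ g r = r ∧ g (a r) = a r := by
    intro g
    rw [hL, mem_st, mem_st, mem_st, mem_st]
    tauto
  have hLo : Odd (Nat.card L) := odd_G4 C.H C.d4
  have hai : a⁻¹ = a := inv_eq_of_mul_eq_one_right C.haa
  have hui : u⁻¹ = u := inv_eq_of_mul_eq_one_right C.huu
  have haL : ∀ g ∈ L, a * g * a⁻¹ ∈ L := by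
    intro g hg
    rw [hmem] at hg ⊢
    obtain ⟨g1, g2, g3, g4, g5⟩ := hg
    refine ⟨mul_mem (mul_mem C.ha g1) (inv_mem C.ha), ?_, ?_, ?_, ?_⟩
    · rw [hai, Perm.mul_apply, Perm.mul_apply, g3, C.aa]
    · rw [hai, Perm.mul_apply, Perm.mul_apply, C.aa, g2]
    · rw [hai, Perm.mul_apply, Perm.mul_apply, g5, C.aa]
    · rw [hai, Perm.mul_apply, Perm.mul_apply, C.aa, g4]
  have huL : ∀ g ∈ L, u * g * u⁻¹ ∈ L := by
    intro g hg
    rw [hmem] at hg ⊢
    obtain ⟨g1, g2, g3, g4, g5⟩ := hg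
    refine ⟨mul_mem (mul_mem C.hu g1) (inv_mem C.hu), ?_, ?_, ?_, ?_⟩
    · rw [hui, Perm.mul_apply, Perm.mul_apply, C.up, g2, C.up]
    · rw [hui, Perm.mul_apply, Perm.mul_apply, C.uap, g3, C.uap]
    · rw [hui, Perm.mul_apply, Perm.mul_apply, C.ur, g5, C.uar]
    · rw [hui, Perm.mul_apply, Perm.mul_apply, C.uar, g4, C.ur]
  -- the centralizers are trivial
  have hDe : D4 e f p (a p) := ⟨F.ef, F.ep, F.eap, hfp, hfap, d1⟩
  have key : ∀ g ∈ G, ∀ t : Perm α, g * a * g⁻¹ = t → ∀ h ∈ G, h * t = t * h →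
      h (g e) = g e → h (g f) = g f → h (g p) = g p → h = 1 := by
    intro g hg t hgt h hh hht h1 h2 h3
    have h4 : g⁻¹ * h * g = 1 := by
      apply hrig _ (mul_mem (mul_mem (inv_mem hg) hh) hg)
      · calc g⁻¹ * h * g * a = g⁻¹ * (h * (g * a * g⁻¹)) * g := by group
          _ = g⁻¹ * ((g * a * g⁻¹) * h) * g := by rw [hgt, hht]
          _ = a * (g⁻¹ * h * g) := by group
      · rw [Perm.mul_apply, Perm.mul_apply, h3]; simp
      · rw [Perm.mul_apply, Perm.mul_apply, h1]; simp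
      · rw [Perm.mul_apply, Perm.mul_apply, h2]; simp
    calc h = g * (g⁻¹ * h * g) * g⁻¹ := by group
      _ = 1 := by rw [h4]; group
  have ca : Nat.card (L ⊓ Subgroup.centralizer {a} : Subgroup (Perm α)) = 1 := by
    rw [Subgroup.card_eq_one, Subgroup.eq_bot_iff_forall]
    intro h hh
    rw [Nor.mem_inf_cent, hmem] at hh
    obtain ⟨⟨g1, g2, g3, g4, g5⟩, g6⟩ := hh
    exact C.Dr_trivial hn hs ⟨⟨g1, g6, g2⟩, g4⟩
  have cu : Nat.card (L ⊓ Subgroup.centralizer {u} : Subgroup (Perm α)) = 1 := by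
    rw [Subgroup.card_eq_one, Subgroup.eq_bot_iff_forall]
    intro h hh
    rw [Nor.mem_inf_cent, hmem] at hh
    obtain ⟨⟨g1, g2, g3, g4, g5⟩, g6⟩ := hh
    obtain ⟨g, hg, hgu, hgp⟩ := conj4 C.H C.ha C.haa C.hu C.huu (p := ![e, f, p, a p])
      (q := ![p, a p, r, a r]) hDe C.d4 ![0, 1, 3, 2]
      (by intro i; fin_cases i <;> simp [C.aa, F.ae, F.af])
      (by intro i; fin_cases i <;> simp [C.up, C.uap, C.ur, C.uar])
    have k0 : g e = p := hgp 0
    have k1 : g f = a p := hgp 1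
    have k2 : g p = r := hgp 2
    exact key g hg u hgu h g1 g6 (by rw [k0, g2]) (by rw [k1, g3]) (by rw [k2, g4])
  have cau : Nat.card (L ⊓ Subgroup.centralizer {a * u} : Subgroup (Perm α)) = 1 := by
    rw [Subgroup.card_eq_one, Subgroup.eq_bot_iff_forall]
    intro h hh
    rw [Nor.mem_inf_cent, hmem] at hh
    obtain ⟨⟨g1, g2, g3, g4, g5⟩, g6⟩ := hh
    obtain ⟨g, hg, hgu, hgp⟩ := conj4 C.H C.ha C.haa (mul_mem C.ha C.hu) C.au_inv
      (p := ![e, f, p, a p]) (q := ![r, a r, p, a p]) hDe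
      ⟨d6, d2.symm, d4.symm, d3.symm, d5.symm, d1⟩ ![0, 1, 3, 2]
      (by intro i; fin_cases i <;> simp [C.aa, F.ae, F.af])
      (by intro i; fin_cases i <;> simp [C.aa, C.up, C.uap, C.ur, C.uar])
    have k0 : g e = r := hgp 0
    have k1 : g f = a r := hgp 1
    have k2 : g p = p := hgp 2
    exact key g hg (a * u) hgu h g1 g6 (by rw [k0, g4]) (by rw [k1, g5]) (by rw [k2, g2])
  have k1 := Cfsg.Agent.Lib.KleinOrder.card_klein (a := a) (b := u) L hLo C.haa C.huu
    C.hua.symm haL huL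
  rw [ca, cu, cau] at k1
  have hL1 : Nat.card L = 1 := by
    have : Nat.card L ∣ 1 := Dvd.intro _ k1
    exact Nat.dvd_one.mp this
  have c0 := card_G C.H C.h8 p
  have c1 := card_G1 C.H C.h8 (x := p) (y := a p) d1
  have c2 := card_G2 C.H C.h8 (x := p) (y := a p) (z := r) d1 d2 d4
  have c3 := card_G3 C.H C.d4
  rw [hn] at c0 c1 c2 c3
  rw [c0, c1, c2, c3, ← hL, hL1]

end Cfsg.Agent.H544.HallB.Ctx

namespace Cfsg.Agent.H544.HallB

open Equiv Equiv.Perm MulAction Cfsg.Agent.H544.MillerC Cfsg.Agent.H544.HallA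
  Cfsg.Agent.H544.HallB.Ctx

/-- Hall's theorem for degree at least eight. -/
theorem main {α : Type*} [Fintype α] [DecidableEq α] {G : Subgroup (Perm α)} (H : Hyp G)
    (h8 : 8 ≤ Fintype.card α) : Fintype.card α = 11 ∧ Nat.card G = 7920 := by
  obtain ⟨a, u, p, r, C⟩ := exists_ctx H h8
  obtain ⟨S, k, m, Y⟩ := C.exists_syl
  have hn : Fintype.card α = a.support.card + 3 := by
    have h1 := Y.not_even
    have h2 := C.card_le
    have h3 := C.card_ge
    omega
  obtain ⟨N, Z⟩ := Y.exists_nor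
  obtain ⟨e, f, f', F⟩ := C.exists_fix3 hn
  have h11 := Z.degree hn F
  exact ⟨h11, order Z h11 (by omega) F⟩

end Cfsg.Agent.H544.HallB
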