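import Mathlib

/-!
# The Krull–Remak–Schmidt theorem for finite groups
-/

set_option autoImplicit false

namespace Cfsg.Agent.H544.KrullSchmidt

universe u v

/-- A group is directly indecomposable: nontrivial, and not the internal direct product of two
nontrivial normal subgroups. -/
def Indec (A : Type*) [Group A] : Prop :=
  Nontrivial A ∧ ∀ H K : Subgroup A, H.Normal → K.Normal → H ⊓ K = ⊥ → H ⊔ K = ⊤ → H = ⊥ ∨ K = ⊥

/-- Every element of a finite monoid has an idempotent power with positive exponent. -/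
theorem exists_idem_pow {M : Type*} [Monoid M] [Finite M] (a : M) :
    ∃ n, 0 < n ∧ a ^ n * a ^ n = a ^ n := by
  obtain ⟨i, j, hij, h⟩ := Finite.exists_ne_map_eq_of_infinite (fun n : ℕ => a ^ n)
  wlog hlt : i < j generalizing i j
  · exact this j i hij.symm h.symm (lt_of_le_of_ne (not_lt.mp hlt) hij.symm)
  obtain ⟨k, rfl⟩ := Nat.exists_eq_add_of_lt hlt
  have h' : a ^ i = a ^ (i + k + 1) := h
  have h1 : ∀ m, i ≤ m → a ^ (m + (k + 1)) = a ^ m := by
    intro m hm
    obtain ⟨d, rfl⟩ := Nat.exists_eq_add_of_le hm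
    calc a ^ (i + d + (k + 1)) = a ^ (i + k + 1) * a ^ d := by rw [← pow_add]; congr 1; ring
      _ = a ^ (i + d) := by rw [← h', ← pow_add]
  have h2 : ∀ t m, i ≤ m → a ^ (m + t * (k + 1)) = a ^ m := by
    intro t
    induction t with
    | zero => intro m _; simp
    | succ t ih =>
      intro m hm
      have e1 : m + (t + 1) * (k + 1) = (m + t * (k + 1)) + (k + 1) := by ring
      rw [e1, h1 _ (by omega), ih m hm]
  refine ⟨(i + 1) * (k + 1), by positivity, ?_⟩
  rw [← pow_add]
  exact h2 (i + 1) _ (by nlinarith)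

/-- **Fitting's lemma** for a normal endomorphism of a finite indecomposable group. -/
theorem fitting {A : Type*} [Group A] [Finite A] (hA : Indec A) (ψ : Monoid.End A)
    (hψ : ∀ x a : A, ψ (x * a * x⁻¹) = x * ψ a * x⁻¹) :
    Function.Injective ψ ∨ ∃ n, ∀ x : A, (ψ ^ n) x = 1 := by
  have : Finite (Monoid.End A) :=
    Finite.of_injective (fun f : Monoid.End A => (f : A → A)) DFunLike.coe_injective
  obtain ⟨n, hn, hidem⟩ := exists_idem_pow ψ
  have hφ : ∀ x : A, (ψ ^ n) ((ψ ^ n) x) = (ψ ^ n) x := by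
    intro x
    have := congrArg (fun f : Monoid.End A => f x) hidem
    simpa using this
  have hnorm : ∀ m : ℕ, ∀ x a : A, (ψ ^ m) (x * a * x⁻¹) = x * (ψ ^ m) a * x⁻¹ := by
    intro m
    induction m with
    | zero => intro x a; simp
    | succ m ih =>
      intro x a
      have e1 : ∀ y : A, (ψ ^ (m + 1)) y = ψ ((ψ ^ m) y) := by
        intro y; rw [pow_succ']; rfl
      rw [e1, e1, ih, hψ]
  set φ : A →* A := ψ ^ n with hφdef
  have h1 := hA.2 φ.ker φ.range inferInstance
    ⟨by
      rintro _ ⟨a, rfl⟩ x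
      exact ⟨x * a * x⁻¹, hnorm n x a⟩⟩
    (by
      rw [eq_bot_iff]
      rintro x ⟨hx1, y, rfl⟩
      have hx2 : φ (φ y) = 1 := hx1
      rw [Subgroup.mem_bot]
      exact (hφ y).symm.trans hx2)
    (by
      rw [eq_top_iff]
      intro x _
      have h2 : x = (x * (φ x)⁻¹) * φ x := by group
      rw [h2]
      refine Subgroup.mul_mem_sup ?_ ⟨x, rfl⟩
      rw [MonoidHom.mem_ker, map_mul, map_inv]
      have : φ (φ x) = φ x := hφ x
      rw [this, mul_inv_cancel])
  rcases h1 with h1 | h1
  · left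
    have h2 : Function.Injective φ := (MonoidHom.ker_eq_bot_iff φ).mp h1
    obtain ⟨m, rfl⟩ : ∃ m, n = m + 1 := ⟨n - 1, by omega⟩
    have h3 : Function.Injective ((ψ ^ m : Monoid.End A) ∘ ψ) := by
      intro x y hxy
      apply h2
      have e1 : ∀ y : A, (ψ ^ (m + 1)) y = (ψ ^ m) (ψ y) := by
        intro y; rw [pow_succ]; rfl
      show (ψ ^ (m + 1)) x = (ψ ^ (m + 1)) y
      rw [e1, e1]; exact hxy
    exact h3.of_comp
  · right
    refine ⟨n, fun x => ?_⟩
    have h2 : φ x ∈ φ.range := ⟨x, rfl⟩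
    rw [h1, Subgroup.mem_bot] at h2
    exact h2

section exchange

variable {A A' B B' : Type*} [Group A] [Group A'] [Group B] [Group B']

/-- First half of the exchange property. -/
theorem exchange_aux [Finite A] (e : A × A' ≃* B × B')
    (hinj : Function.Injective (fun a : A => (e.symm ((e (a, 1)).1, 1)).1)) :
    ∃ K : Subgroup B, Nonempty (B ≃* A × K) ∧ Nonempty (A' ≃* K × B') := by
  let f : A →* B := (MonoidHom.fst B B').comp (e.toMonoidHom.comp (MonoidHom.inl A A'))
  let g : B →* A := (MonoidHom.fst A A').comp (e.symm.toMonoidHom.comp (MonoidHom.inl B B'))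
  have hf : ∀ a, f a = (e (a, 1)).1 := fun _ => rfl
  have hg : ∀ b, g b = (e.symm (b, 1)).1 := fun _ => rfl
  have hgf : Function.Injective (fun a => g (f a)) := hinj
  have hsurj : Function.Surjective (fun a => g (f a)) := Finite.surjective_of_injective hgf
  have hcomm : ∀ (a : A) (x : g.ker), Commute (f a) (x : B) := by
    intro a x
    have h1 : e.symm ((x : B), 1) = (1, (e.symm ((x : B), 1)).2) := by
      apply Prod.ext
      · exact x.2
      · rfl
    have h2 : Commute ((a, 1) : A × A') (e.symm ((x : B), 1)) := by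
      rw [h1]
      show (a, 1) * (1, (e.symm ((x : B), 1)).2) = (1, (e.symm ((x : B), 1)).2) * (a, 1)
      simp
    have h3 := h2.map e
    rw [MulEquiv.apply_symm_apply] at h3
    have h4 := congrArg Prod.fst h3.eq
    exact h4
  refine ⟨g.ker, ⟨?_⟩, ⟨?_⟩⟩
  · refine (MulEquiv.ofBijective (MonoidHom.noncommCoprod f g.ker.subtype hcomm) ⟨?_, ?_⟩).symm
    · rw [injective_iff_map_eq_one]
      rintro ⟨a, x⟩ hax
      have h1 : f a * (x : B) = 1 := hax
      have h2 : g (f a) = 1 := by
        have := congrArg g h1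
        rw [map_mul, map_one, show g (x : B) = 1 from x.2, mul_one] at this
        exact this
      have h3 : a = 1 := hgf (by
        show g (f a) = g (f 1)
        rw [h2, map_one, map_one])
      subst h3
      rw [map_one, one_mul] at h1
      exact Prod.ext rfl (Subtype.ext h1)
    · intro b
      obtain ⟨a, ha⟩ := hsurj (g b)
      have ha' : g (f a) = g b := ha
      refine ⟨(a, ⟨(f a)⁻¹ * b, ?_⟩), ?_⟩
      · rw [MonoidHom.mem_ker, map_mul, map_inv, ha', inv_mul_cancel]
      · show f a * ((f a)⁻¹ * b) = b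
        rw [mul_inv_cancel_left]
  · let h : g.ker × B' →* A' := (MonoidHom.snd A A').comp
      (e.symm.toMonoidHom.comp (g.ker.subtype.prodMap (MonoidHom.id B')))
    have hh : ∀ x : g.ker, ∀ y : B', h (x, y) = (e.symm ((x : B), y)).2 := fun _ _ => rfl
    refine (MulEquiv.ofBijective h ⟨?_, ?_⟩).symm
    · rw [injective_iff_map_eq_one]
      rintro ⟨x, y⟩ hxy
      rw [hh] at hxy
      set a := (e.symm ((x : B), y)).1 with ha
      have h1 : e.symm ((x : B), y) = (a, 1) := Prod.ext rfl hxy
      have h2 : ((x : B), y) = e (a, 1) := by rw [← h1, MulEquiv.apply_symm_apply]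
      have h3 : (x : B) = f a := congrArg Prod.fst h2
      have h4 : g (f a) = 1 := by rw [← h3]; exact x.2
      have h5 : a = 1 := hgf (by
        show g (f a) = g (f 1)
        rw [h4, map_one, map_one])
      rw [h5] at h2
      have h6 : ((x : B), y) = 1 := by rw [h2]; exact map_one e
      have h7 : (x : B) = 1 := congrArg Prod.fst h6
      have h8 : y = 1 := congrArg Prod.snd h6
      exact Prod.ext (Subtype.ext h7) h8
    · intro a'
      obtain ⟨a, ha⟩ := hsurj (g (e (1, a')).1)⁻¹
      have ha' : g (f a) = (g (e (1, a')).1)⁻¹ := ha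
      refine ⟨(⟨f a * (e (1, a')).1, ?_⟩, (e (a, 1)).2 * (e (1, a')).2), ?_⟩
      · rw [MonoidHom.mem_ker, map_mul, ha', inv_mul_cancel]
      · rw [hh]
        have h1 : ((f a * (e (1, a')).1, (e (a, 1)).2 * (e (1, a')).2) : B × B') =
            e (a, a') := by
          have : ((a, a') : A × A') = (a, 1) * (1, a') := by simp
          rw [this, map_mul]; rfl
        show (e.symm ((f a * (e (1, a')).1, (e (a, 1)).2 * (e (1, a')).2) : B × B')).2 = a'
        rw [h1, MulEquiv.symm_apply_apply]

/-- **Exchange property** of a finite indecomposable direct factor with respect to a direct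
decomposition in two factors. -/
theorem exchange [Finite A] (hA : Indec A) (e : A × A' ≃* B × B') :
    (∃ K : Subgroup B, Nonempty (B ≃* A × K) ∧ Nonempty (A' ≃* K × B')) ∨
      ∃ K : Subgroup B', Nonempty (B' ≃* A × K) ∧ Nonempty (A' ≃* K × B) := by
  let f : A →* B := (MonoidHom.fst B B').comp (e.toMonoidHom.comp (MonoidHom.inl A A'))
  let f' : A →* B' := (MonoidHom.snd B B').comp (e.toMonoidHom.comp (MonoidHom.inl A A'))
  let g : B →* A := (MonoidHom.fst A A').comp (e.symm.toMonoidHom.comp (MonoidHom.inl B B'))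
  let g' : B' →* A := (MonoidHom.fst A A').comp (e.symm.toMonoidHom.comp (MonoidHom.inr B B'))
  let ψ : Monoid.End A := g.comp f
  let χ : A →* A := g'.comp f'
  have hψ : ∀ a, ψ a = (e.symm ((e (a, 1)).1, 1)).1 := fun _ => rfl
  have hχ : ∀ a, χ a = (e.symm (1, (e (a, 1)).2)).1 := fun _ => rfl
  have hsum : ∀ a, ψ a * χ a = a := by
    intro a
    rw [hψ, hχ, ← Prod.fst_mul, ← map_mul]
    have : (((e (a, 1)).1, 1) * (1, (e (a, 1)).2) : B × B') = e (a, 1) := by
      apply Prod.ext <;> simp
    rw [this, MulEquiv.symm_apply_apply]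
  have hcomm : ∀ a x, Commute (ψ a) (χ x) := by
    intro a x
    have h1 : Commute (((e (a, 1)).1, 1) : B × B') (1, (e (x, 1)).2) := by
      show (((e (a, 1)).1, 1) : B × B') * (1, (e (x, 1)).2) =
        (1, (e (x, 1)).2) * ((e (a, 1)).1, 1)
      simp
    have h2 := h1.map e.symm
    exact congrArg Prod.fst h2.eq
  have hnorm : ∀ x a : A, ψ (x * a * x⁻¹) = x * ψ a * x⁻¹ := by
    intro x a
    rw [map_mul, map_mul, map_inv]
    have h1 := (hcomm a x).eq
    calc ψ x * ψ a * (ψ x)⁻¹ = ψ x * (ψ a * χ x) * (χ x)⁻¹ * (ψ x)⁻¹ := by group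
      _ = ψ x * (χ x * ψ a) * (χ x)⁻¹ * (ψ x)⁻¹ := by rw [h1]
      _ = (ψ x * χ x) * ψ a * (ψ x * χ x)⁻¹ := by group
      _ = x * ψ a * x⁻¹ := by rw [hsum]
  rcases fitting hA ψ hnorm with h | ⟨n, hn⟩
  · left
    exact exchange_aux e h
  · right
    have hχinj : Function.Injective χ := by
      rw [injective_iff_map_eq_one]
      intro a ha
      have h1 : ψ a = a := by
        have := hsum a
        rwa [ha, mul_one] at this
      have h2 : ∀ m : ℕ, (ψ ^ m) a = a := by
        intro m
        induction m with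
        | zero => rfl
        | succ m ih =>
          rw [pow_succ']
          show ψ ((ψ ^ m) a) = a
          rw [ih, h1]
      rw [← h2 n]; exact hn a
    exact exchange_aux (e.trans MulEquiv.prodComm) (by
      intro x y hxy
      apply hχinj
      rw [hχ, hχ]
      exact hxy)

theorem Indec.of_equiv {A : Type*} {B : Type*} [Group A] [Group B] (h : Indec A) (e : A ≃* B) :
    Indec B := by
  refine ⟨e.toEquiv.nontrivial_congr.mp h.1, ?_⟩
  intro H K hH hK h1 h2
  have hinj : Function.Injective e.symm.toMonoidHom := e.symm.injective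
  have hsurj : Function.Surjective e.symm.toMonoidHom := e.symm.surjective
  have h3 := h.2 (H.map e.symm.toMonoidHom) (K.map e.symm.toMonoidHom)
    (hH.map _ hsurj) (hK.map _ hsurj)
    (by rw [← Subgroup.map_inf _ _ _ hinj, h1, Subgroup.map_bot])
    (by rw [← Subgroup.map_sup, h2, Subgroup.map_top_of_surjective _ hsurj])
  rcases h3 with h3 | h3
  · left; rwa [Subgroup.map_eq_bot_iff_of_injective _ hinj] at h3
  · right; rwa [Subgroup.map_eq_bot_iff_of_injective _ hinj] at h3

/-- In an indecomposable direct product with nontrivial first factor the second factor is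
trivial. -/
theorem Indec.subsingleton_snd {A K : Type*} [Group A] [Group K] [Nontrivial A]
    (h : Indec (A × K)) : Subsingleton K := by
  have h1 := h.2 (MonoidHom.ker (MonoidHom.snd A K)) (MonoidHom.ker (MonoidHom.fst A K))
    inferInstance inferInstance
    (by
      rw [eq_bot_iff]
      rintro ⟨a, k⟩ ⟨h1, h2⟩
      have h1' : k = 1 := h1
      have h2' : a = 1 := h2
      rw [Subgroup.mem_bot, h1', h2']; rfl)
    (by
      rw [eq_top_iff]
      rintro ⟨a, k⟩ _
      have : ((a, k) : A × K) = (a, 1) * (1, k) := by simp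
      rw [this]
      exact Subgroup.mul_mem_sup (by rw [MonoidHom.mem_ker]; rfl) (by rw [MonoidHom.mem_ker]; rfl))
  rcases h1 with h1 | h1
  · exfalso
    obtain ⟨a, ha⟩ := exists_ne (1 : A)
    have : ((a, 1) : A × K) ∈ MonoidHom.ker (MonoidHom.snd A K) := by
      rw [MonoidHom.mem_ker]; rfl
    rw [h1, Subgroup.mem_bot] at this
    exact ha (congrArg Prod.fst this)
  · refine ⟨fun x y => ?_⟩
    have h2 : ∀ k : K, k = 1 := by
      intro k
      have : ((1, k) : A × K) ∈ MonoidHom.ker (MonoidHom.fst A K) := by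
        rw [MonoidHom.mem_ker]; rfl
      rw [h1, Subgroup.mem_bot] at this
      exact congrArg Prod.snd this
    rw [h2 x, h2 y]

end exchange

/-- The equivalence splitting off the first factor of a finite product. -/
def piSplit {n : ℕ} (C : Fin (n + 1) → Type*) [∀ i, Group (C i)] :
    ((i : Fin (n + 1)) → C i) ≃* C 0 × ((i : Fin n) → C i.succ) where
  toFun f := (f 0, fun i => f i.succ)
  invFun q := Fin.cons q.1 q.2
  left_inv f := by
    funext i
    refine Fin.cases ?_ (fun i => ?_) i
    · rfl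
    · rfl
  right_inv q := rfl
  map_mul' f g := rfl

/-- Transport along an equality of indices. -/
def idxEquiv {ι : Type*} (B : ι → Type*) [∀ i, Group (B i)] {i j : ι} (h : i = j) : B i ≃* B j := by
  subst h; exact MulEquiv.refl _

theorem exists_factor_aux {A : Type u} [Group A] [Finite A] (hA : Indec A) (n : ℕ) :
    ∀ {A' : Type v} [Group A'] {B : Fin (n + 1) → Type v} [∀ i, Group (B i)]
      (_ : ∀ j, Indec (B j)) (_ : A × A' ≃* ((j : Fin (n + 1)) → B j)),
      ∃ j : Fin (n + 1), Nonempty (A ≃* B j) ∧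
        Nonempty (A' ≃* ((i : Fin n) → B (j.succAbove i))) := by
  have := hA.1
  induction n with
  | zero =>
    intro A' _ B _ hB e
    rcases exchange hA (e.trans (piSplit B)) with ⟨K, ⟨e1⟩, ⟨e2⟩⟩ | ⟨K, ⟨e1⟩, ⟨e2⟩⟩
    · have : Subsingleton K := ((hB 0).of_equiv e1).subsingleton_snd
      have : Unique K := ⟨⟨1⟩, fun x => Subsingleton.elim _ _⟩
      refine ⟨0, ⟨(e1.trans MulEquiv.prodUnique).symm⟩, ⟨(e2.trans MulEquiv.uniqueProd).trans ?_⟩⟩
      exact MulEquiv.piCongrRight (fun i => idxEquiv B (by simp))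
    · exfalso
      obtain ⟨a, ha⟩ := exists_ne (1 : A)
      have h1 : e1.symm (a, 1) = e1.symm 1 := Subsingleton.elim _ _
      exact ha (congrArg Prod.fst (e1.symm.injective h1))
  | succ n ih =>
    intro A' _ B _ hB e
    rcases exchange hA (e.trans (piSplit B)) with ⟨K, ⟨e1⟩, ⟨e2⟩⟩ | ⟨K, ⟨e1⟩, ⟨e2⟩⟩
    · have : Subsingleton K := ((hB 0).of_equiv e1).subsingleton_snd
      have : Unique K := ⟨⟨1⟩, fun x => Subsingleton.elim _ _⟩
      refine ⟨0, ⟨(e1.trans MulEquiv.prodUnique).symm⟩, ⟨(e2.trans MulEquiv.uniqueProd).trans ?_⟩⟩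
      exact MulEquiv.piCongrRight (fun i => idxEquiv B (by simp))
    · obtain ⟨j, ⟨e3⟩, ⟨e4⟩⟩ := ih (A' := K) (B := fun i : Fin (n + 1) => B i.succ)
        (fun j => hB j.succ) e1.symm
      refine ⟨j.succ, ⟨e3⟩, ⟨(e2.trans MulEquiv.prodComm).trans (MulEquiv.symm ?_)⟩⟩
      refine (piSplit (fun i : Fin (n + 1) => B (j.succ.succAbove i))).trans ?_
      refine MulEquiv.prodCongr (idxEquiv B (by simp)) (MulEquiv.trans ?_ e4.symm)
      exact MulEquiv.piCongrRight (fun i => idxEquiv B (by simp [Fin.succ_succAbove_succ]))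

theorem exists_factor {A : Type u} [Group A] [Finite A] (hA : Indec A) (n : ℕ)
    {A' : Type*} [Group A'] {B : Fin (n + 1) → Type v} [∀ i, Group (B i)]
      (hB : ∀ j, Indec (B j)) (e : A × A' ≃* ((j : Fin (n + 1)) → B j)) :
      ∃ j : Fin (n + 1), Nonempty (A ≃* B j) ∧
        Nonempty (A' ≃* ((i : Fin n) → B (j.succAbove i))) := by
  let ι : A' →* ((j : Fin (n + 1)) → B j) := e.toMonoidHom.comp (MonoidHom.inr A A')
  have hι : Function.Injective ι := by
    intro x y hxy
    have : e (1, x) = e (1, y) := hxy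
    exact congrArg Prod.snd (e.injective this)
  let e' : A' ≃* ι.range := MonoidHom.ofInjective hι
  obtain ⟨j, h1, ⟨h2⟩⟩ := exists_factor_aux hA n (A' := ι.range) hB
    ((MulEquiv.prodCongr (MulEquiv.refl A) e'.symm).trans e)
  exact ⟨j, h1, ⟨e'.trans h2⟩⟩

/-- **Krull–Remak–Schmidt** for finite groups. -/
theorem krullSchmidt (m : ℕ) : ∀ (n : ℕ) {A : Fin m → Type u} {B : Fin n → Type v}
    [∀ i, Group (A i)] [∀ j, Group (B j)] [∀ i, Finite (A i)]
    (_ : ∀ i, Indec (A i)) (_ : ∀ j, Indec (B j))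
    (_ : ((i : Fin m) → A i) ≃* ((j : Fin n) → B j)),
    ∃ σ : Fin m ≃ Fin n, ∀ i, Nonempty (A i ≃* B (σ i)) := by
  induction m with
  | zero =>
    intro n A B _ _ _ hA hB e
    rcases n with _ | n
    · exact ⟨Equiv.refl _, fun i => i.elim0⟩
    · exfalso
      have := (hB 0).1
      obtain ⟨b, hb⟩ := exists_ne (1 : B 0)
      have h1 : e.symm (Pi.mulSingle 0 b) = e.symm 1 := Subsingleton.elim _ _
      have h2 := e.symm.injective h1
      apply hb
      have h3 := congrFun h2 0
      rwa [Pi.mulSingle_eq_same] at h3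
  | succ m ih =>
    intro n A B _ _ _ hA hB e
    rcases n with _ | n
    · exfalso
      have := (hA 0).1
      obtain ⟨a, ha⟩ := exists_ne (1 : A 0)
      have h1 : e (Pi.mulSingle 0 a) = e 1 := Subsingleton.elim _ _
      have h2 := e.injective h1
      apply ha
      have h3 := congrFun h2 0
      rwa [Pi.mulSingle_eq_same] at h3
    · obtain ⟨j, h1, ⟨h2⟩⟩ := exists_factor (hA 0) n hB ((piSplit A).symm.trans e)
      obtain ⟨σ, hσ⟩ := ih n (A := fun i => A i.succ) (B := fun i => B (j.succAbove i))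
        (fun i => hA i.succ) (fun i => hB _) h2
      let τ : Fin (m + 1) ≃ Fin (n + 1) :=
        ((finSuccEquiv' 0).trans (Equiv.optionCongr σ)).trans (finSuccEquiv' j).symm
      have hτ0 : j = τ 0 := by
        show j = (finSuccEquiv' j).symm ((Equiv.optionCongr σ) ((finSuccEquiv' 0) 0))
        rw [finSuccEquiv'_at]
        simp
      have hτs : ∀ i : Fin m, j.succAbove (σ i) = τ i.succ := by
        intro i
        show j.succAbove (σ i) = (finSuccEquiv' j).symm ((Equiv.optionCongr σ) ((finSuccEquiv' 0) i.succ))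
        rw [← Fin.succAbove_zero_apply, finSuccEquiv'_succAbove]
        simp
      refine ⟨τ, ?_⟩
      intro i
      refine Fin.cases ?_ (fun i => ?_) i
      · exact ⟨h1.some.trans (idxEquiv B hτ0)⟩
      · exact ⟨(hσ i).some.trans (idxEquiv B (hτs i))⟩

end Cfsg.Agent.H544.KrullSchmidt
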