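import Mathlib

/-!
# Lemmas for Miller's bound on transitivity (degree `kp + r`)

Part A: facts about normal subgroups of a full symmetric group.
-/

set_option autoImplicit false

namespace Cfsg.Agent.H544.MillerA

open Equiv Equiv.Perm

section sym

variable {F : Type*} [DecidableEq F]

/-- A product of two transpositions has order dividing `6`. -/
theorem swap_mul_swap_pow_six (a b c d : F) : (swap c d * swap a b) ^ 6 = 1 := by
  by_cases hab : a = b
  · subst hab
    rw [swap_self, ← Equiv.Perm.one_def, mul_one, show 6 = 2 * 3 by norm_num, pow_mul, pow_two,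
      swap_mul_self, one_pow]
  by_cases hcd : c = d
  · subst hcd
    rw [swap_self, ← Equiv.Perm.one_def, one_mul, show 6 = 2 * 3 by norm_num, pow_mul, pow_two,
      swap_mul_self, one_pow]
  have h3 : ∀ x y z : F, x ≠ y → x ≠ z → (swap x y * swap x z) ^ 6 = 1 := by
    intro x y z hxy hxz
    by_cases hyz : y = z
    · subst hyz; rw [swap_mul_self, one_pow]
    · have e : swap x y * swap x z = swap x y * swap x z := rfl
      have : (swap x y * swap x z) ^ 3 = 1 := by
        have h1 : swap x z = swap x y * swap y z * swap x y := by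
          have := swap_apply_apply (swap x y) y z
          rw [swap_apply_right, swap_apply_of_ne_of_ne (Ne.symm hxz) (Ne.symm hyz)] at this
          rw [this, swap_inv]
        have h2 : swap y z = swap x z * swap x y * swap x z := by
          have := swap_apply_apply (swap x z) x y
          rw [swap_apply_left, swap_apply_of_ne_of_ne (Ne.symm hxy) (hyz)] at this
          rw [swap_comm y z, this, swap_inv]
        have hxx : swap x y * swap x y = 1 := swap_mul_self x y
        have hyy : swap x z * swap x z = 1 := swap_mul_self x z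
        -- st s = t s t  where s = swap x y, t = swap x z
        have h4 : swap x y * swap x z * swap x y = swap x z * swap x y * swap x z := by
          calc swap x y * swap x z * swap x y
              = swap x y * (swap x y * swap y z * swap x y) * swap x y := by rw [← h1]
            _ = (swap x y * swap x y) * swap y z * (swap x y * swap x y) := by group
            _ = swap y z := by rw [hxx]; group
            _ = _ := h2
        calc (swap x y * swap x z) ^ 3
            = (swap x y * swap x z * swap x y) * (swap x z * swap x y * swap x z) := by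
              rw [pow_succ, pow_two]; group
          _ = (swap x z * swap x y * swap x z) * (swap x z * swap x y * swap x z) := by rw [h4]
          _ = swap x z * swap x y * (swap x z * swap x z) * swap x y * swap x z := by group
          _ = 1 := by
              rw [hyy, mul_one, mul_assoc (swap x z), hxx, mul_one, hyy]
      rw [show 6 = 3 * 2 by norm_num, pow_mul, this, one_pow]
  by_cases h1 : a = c
  · subst h1; exact h3 _ _ _ hcd hab
  by_cases h2 : a = d
  · subst h2; rw [swap_comm c a]; exact h3 _ _ _ (Ne.symm hcd) hab
  by_cases h4 : b = c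
  · subst h4; rw [swap_comm a b]; exact h3 _ _ _ hcd (Ne.symm hab)
  by_cases h5 : b = d
  · subst h5; rw [swap_comm a b, swap_comm c b]; exact h3 _ _ _ (Ne.symm hcd) (Ne.symm hab)
  have hc : Commute (swap c d) (swap a b) := by
    have := swap_apply_apply (swap c d) a b
    rw [swap_apply_of_ne_of_ne h1 h2, swap_apply_of_ne_of_ne h4 h5] at this
    show swap c d * swap a b = swap a b * swap c d
    calc swap c d * swap a b = (swap c d * swap a b * (swap c d)⁻¹) * swap c d := by group
      _ = swap a b * swap c d := by rw [← this]
  rw [hc.mul_pow, show 6 = 2 * 3 by norm_num, pow_mul, pow_mul, pow_two, pow_two, swap_mul_self,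
    swap_mul_self, one_pow, one_mul]

theorem conj_swap_mul (m : Perm F) (a b : F) :
    m * swap a b * m⁻¹ * swap a b = swap (m a) (m b) * swap a b := by
  rw [swap_apply_apply]

/-- A nontrivial permutation of at least three points does not commute with some transposition. -/
theorem exists_swap [Fintype F] (hF : 3 ≤ Fintype.card F) (m : Perm F) (hm : m ≠ 1) :
    ∃ a b : F, a ≠ b ∧ m * swap a b * m⁻¹ * swap a b ≠ 1 := by
  obtain ⟨a, ha⟩ : ∃ a, m a ≠ a := by
    by_contra hcon
    push Not at hcon
    exact hm (Equiv.ext hcon)
  obtain ⟨b, hb⟩ : ∃ b : F, b ∉ ({a, m a} : Finset F) := by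
    by_contra hcon
    push Not at hcon
    have : Fintype.card F ≤ ({a, m a} : Finset F).card :=
      Finset.card_le_card (fun x _ => hcon x)
    have h2 := Finset.card_le_two (a := a) (b := m a)
    omega
  simp only [Finset.mem_insert, Finset.mem_singleton, not_or] at hb
  refine ⟨a, b, fun h => hb.1 h.symm, ?_⟩
  rw [conj_swap_mul]
  intro h
  have h1 : swap (m a) (m b) = swap a b := by
    rw [mul_eq_one_iff_eq_inv, swap_inv] at h
    exact h
  have h2 : swap a b (m a) = m b := by rw [← h1, swap_apply_left]
  rw [swap_apply_of_ne_of_ne ha (fun h => hb.2 h.symm)] at h2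
  exact hb.1 (m.injective h2).symm

theorem support_card_le [Fintype F] (m : Perm F) (a b : F) :
    (m * swap a b * m⁻¹ * swap a b).support.card ≤ 4 := by
  rw [conj_swap_mul]
  have h1 := Equiv.Perm.support_mul_le (swap (m a) (m b)) (swap a b)
  have h2 : ∀ x y : F, (swap x y).support.card ≤ 2 := by
    intro x y
    by_cases hxy : x = y
    · subst hxy; simp
    · exact (card_support_swap hxy).le
  calc _ ≤ ((swap (m a) (m b)).support ⊔ (swap a b).support).card := Finset.card_le_card h1
    _ ≤ (swap (m a) (m b)).support.card + (swap a b).support.card := Finset.card_union_le _ _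
    _ ≤ 2 + 2 := Nat.add_le_add (h2 _ _) (h2 _ _)

/-- An abelian normal subgroup of the symmetric group acts semiregularly. -/
theorem eq_one_of_fix (M : Subgroup (Perm F)) [M.Normal]
    (hab : ∀ x ∈ M, ∀ y ∈ M, x * y = y * x) (m : Perm F) (hm : m ∈ M) (c : F) (hc : m c = c) :
    m = 1 := by
  by_contra hne
  obtain ⟨a, ha⟩ : ∃ a, m a ≠ a := by
    by_contra hcon
    push Not at hcon
    exact hne (Equiv.ext hcon)
  have hca : c ≠ a := fun h => ha (h ▸ hc)
  have hcb : c ≠ m a := fun h => hca (m.injective (hc.trans h))
  set b := m a with hb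
  have h1 : swap b c * m * (swap b c)⁻¹ ∈ M := ‹M.Normal›.conj_mem m hm _
  have h2 := congrArg (fun f : Perm F => f a) (hab m hm _ h1)
  simp only [Perm.mul_apply, swap_inv] at h2
  rw [swap_apply_of_ne_of_ne (Ne.symm ha) (Ne.symm hca), ← hb, swap_apply_left, hc,
    swap_apply_right] at h2
  exact hcb h2

/-- A nontrivial normal subgroup of the symmetric group is transitive. -/
theorem exists_map (M : Subgroup (Perm F)) [M.Normal] (hM : M ≠ ⊥) (a b : F) :
    ∃ m ∈ M, m a = b := by
  by_cases hab : a = b
  · exact ⟨1, one_mem _, hab⟩
  obtain ⟨⟨m, hm⟩, hne'⟩ := Subgroup.ne_bot_iff_exists_ne_one.mp hM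
  have hne : m ≠ 1 := fun h' => hne' (Subtype.ext h')
  obtain ⟨x, hx⟩ : ∃ a, m a ≠ a := by
    by_contra hcon
    push Not at hcon
    exact hne (Equiv.ext hcon)
  set y := m x with hy
  set s : Perm F := swap (swap x a y) b * swap x a with hs
  have h1 : s x = a := by
    rw [hs, Perm.mul_apply, swap_apply_left]
    refine swap_apply_of_ne_of_ne ?_ hab
    intro h
    apply hx
    have := (swap x a).injective (a₁ := x) (a₂ := y) (by rw [swap_apply_left]; exact h)
    exact this.symm
  have h2 : s y = b := by
    rw [hs, Perm.mul_apply, swap_apply_left]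
  refine ⟨s * m * s⁻¹, ‹M.Normal›.conj_mem m hm s, ?_⟩
  have h3 : s⁻¹ a = x := by rw [← h1]; simp
  rw [Perm.mul_apply, Perm.mul_apply, h3, ← hy, h2]

/-- On at least five points, the symmetric group has no nontrivial abelian normal subgroup. -/
theorem eq_bot_of_abelian [Fintype F] (hF : 5 ≤ Fintype.card F) (M : Subgroup (Perm F)) [M.Normal]
    (hab : ∀ x ∈ M, ∀ y ∈ M, x * y = y * x) : M = ⊥ := by
  rw [eq_bot_iff]
  intro m hm
  rw [Subgroup.mem_bot]
  by_contra hne
  obtain ⟨a, b, _, h⟩ := exists_swap (by omega) m hne
  have h1 : m * swap a b * m⁻¹ * swap a b ∈ M := by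
    have e : m * swap a b * m⁻¹ * swap a b = m * (swap a b * m⁻¹ * (swap a b)⁻¹) := by
      rw [swap_inv]; group
    rw [e]
    exact mul_mem hm (‹M.Normal›.conj_mem _ (inv_mem hm) _)
  have h2 := support_card_le m a b
  obtain ⟨c, hc⟩ : ∃ c : F, c ∉ (m * swap a b * m⁻¹ * swap a b).support := by
    by_contra hcon
    push Not at hcon
    have : Fintype.card F ≤ (m * swap a b * m⁻¹ * swap a b).support.card :=
      Finset.card_le_card (fun x _ => hcon x)
    omega
  rw [Equiv.Perm.notMem_support] at hc
  exact h (eq_one_of_fix M hab _ h1 c hc)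

end sym

end Cfsg.Agent.H544.MillerA
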