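import Mathlib

/-!
# Lemmas for Miller's bound on transitivity (degree `kp + r`)

Part B: a `p`-group of permutations all of whose orbits have length `1` or `p`.
-/

set_option autoImplicit false

namespace Cfsg.Agent.H544.MillerB

open Equiv Equiv.Perm MulAction

variable {α : Type*}

/-- `P` is a `p`-group of permutations fixing `F` pointwise and with all other orbits of
length `p`. -/
structure Setup (p : ℕ) (P : Subgroup (Perm α)) (F : Set α) : Prop where
  fix : ∀ x ∈ F, ∀ h ∈ P, h x = x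
  orb : ∀ x, x ∉ F → Nat.card (MulAction.orbit P x) = p
  pg : IsPGroup p P

variable {p : ℕ} {P : Subgroup (Perm α)} {F : Set α}

namespace Setup

theorem stab_index (S : Setup p P F) {x : α} (hx : x ∉ F) : (stabilizer P x).index = p := by
  rw [index_stabilizer, Set.ncard_def, ← S.orb x hx]; rfl

theorem stab_normal [Finite α] (hp : p.Prime) (S : Setup p P F) {x : α} (hx : x ∉ F) :
    (stabilizer P x).Normal := by
  have := Fact.mk hp
  obtain ⟨n, hn⟩ := (IsPGroup.iff_card).mp S.pg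
  apply Subgroup.normal_of_index_eq_minFac_card
  rw [S.stab_index hx, hn]
  have hn0 : n ≠ 0 := by
    rintro rfl
    have h1 := Subgroup.index_dvd_card (stabilizer P x)
    rw [hn, pow_zero, S.stab_index hx, Nat.dvd_one] at h1
    exact hp.one_lt.ne' h1
  exact (hp.pow_minFac hn0).symm

theorem comm_at [Finite α] (hp : p.Prime) (S : Setup p P F) (x : α) (h : Perm α) (hh : h ∈ P)
    (h' : Perm α) (hh' : h' ∈ P) : (h * h') x = (h' * h) x := by
  by_cases hx : x ∈ F
  · rw [Perm.mul_apply, Perm.mul_apply, S.fix x hx h hh, S.fix x hx h' hh', S.fix x hx h hh]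
  have := Fact.mk hp
  have := S.stab_normal hp hx
  have hc : Nat.card (P ⧸ stabilizer P x) = p := S.stab_index hx
  have : IsCyclic (P ⧸ stabilizer P x) := isCyclic_of_prime_card hc
  let a : P := ⟨h, hh⟩
  let b : P := ⟨h', hh'⟩
  have h1 : (QuotientGroup.mk a : P ⧸ stabilizer P x) * QuotientGroup.mk b =
      QuotientGroup.mk b * QuotientGroup.mk a := by
    letI := IsCyclic.commGroup (α := P ⧸ stabilizer P x)
    exact mul_comm _ _
  rw [← QuotientGroup.mk_mul, ← QuotientGroup.mk_mul, QuotientGroup.eq] at h1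
  have h2 : ((a * b)⁻¹ * (b * a)) • x = x := h1
  have h3 : (b * a) • x = (a * b) • x := by
    rw [mul_smul, inv_smul_eq_iff] at h2
    exact h2
  exact h3.symm

theorem comm [Finite α] (hp : p.Prime) (S : Setup p P F) (h : Perm α) (hh : h ∈ P)
    (h' : Perm α) (hh' : h' ∈ P) : h * h' = h' * h :=
  Equiv.ext (fun x => S.comm_at hp x h hh h' hh')

theorem pow_p [Finite α] (hp : p.Prime) (S : Setup p P F) (h : Perm α) (hh : h ∈ P) :
    h ^ p = 1 := by
  apply Equiv.ext
  intro x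
  rw [Perm.one_apply]
  by_cases hx : x ∈ F
  · exact S.fix x hx _ (pow_mem hh p)
  have := S.stab_normal hp hx
  have h1 := Subgroup.pow_index_mem (stabilizer P x) (⟨h, hh⟩ : P)
  rw [S.stab_index hx] at h1
  exact h1

theorem gen [Finite α] (hp : p.Prime) (S : Setup p P F) {x : α} (hx : x ∉ F) {u : Perm α}
    (hu : u ∈ P) (hux : u x ≠ x) (h : Perm α) (hh : h ∈ P) : ∃ i : ℕ, h x = (u ^ i) x := by
  have := Fact.mk hp
  have := S.stab_normal hp hx
  have hc : Nat.card (P ⧸ stabilizer P x) = p := S.stab_index hx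
  let a : P := ⟨u, hu⟩
  let b : P := ⟨h, hh⟩
  have hne : (QuotientGroup.mk a : P ⧸ stabilizer P x) ≠ 1 := by
    intro h1
    rw [QuotientGroup.eq_one_iff] at h1
    exact hux h1
  obtain ⟨i, hi⟩ := mem_powers_of_prime_card (g' := (QuotientGroup.mk b : P ⧸ stabilizer P x))
    hc hne
  refine ⟨i, ?_⟩
  have h2 : (QuotientGroup.mk (a ^ i) : P ⧸ stabilizer P x) = QuotientGroup.mk b := by
    rw [← hi]; rfl
  rw [QuotientGroup.eq] at h2
  have h3 : ((a ^ i)⁻¹ * b) • x = x := h2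
  rw [mul_smul, inv_smul_eq_iff] at h3
  exact h3

/-- If `h x = h' x` then `h` and `h'` agree on the whole orbit of `x`. -/
theorem eq_on_orbit [Finite α] (hp : p.Prime) (S : Setup p P F) {x : α} {h h' : Perm α}
    (hh : h ∈ P) (hh' : h' ∈ P) (e : h x = h' x) {v : Perm α} (hv : v ∈ P) :
    h (v x) = h' (v x) := by
  rw [← Perm.mul_apply, ← Perm.mul_apply, S.comm hp h hh v hv, S.comm hp h' hh' v hv,
    Perm.mul_apply, Perm.mul_apply, e]

/-- `n` normalizes `P` and the stabilizer of `x` in `P`. -/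
def Good (P : Subgroup (Perm α)) (n : Perm α) (x : α) : Prop :=
  (∀ h, h ∈ P ↔ n * h * n⁻¹ ∈ P) ∧ ∀ h ∈ P, h x = x ↔ (n * h * n⁻¹) x = x

theorem good_inv {n : Perm α} {x : α} (g : Good P n x) : Good P n⁻¹ x := by
  refine ⟨fun h => ?_, fun h hh => ?_⟩
  · have h1 := g.1 (n⁻¹ * h * n⁻¹⁻¹)
    rw [h1]
    have : n * (n⁻¹ * h * n⁻¹⁻¹) * n⁻¹ = h := by group
    rw [this]
  · have e : n * (n⁻¹ * h * n⁻¹⁻¹) * n⁻¹ = h := by group
    have hm : n⁻¹ * h * n⁻¹⁻¹ ∈ P := by rw [g.1, e]; exact hh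
    have h1 := g.2 _ hm
    rw [e] at h1
    exact h1.symm

theorem good_mul {n n' : Perm α} {x : α} (g : Good P n x) (g' : Good P n' x) :
    Good P (n * n') x := by
  have e : ∀ h : Perm α, n * n' * h * (n * n')⁻¹ = n * (n' * h * n'⁻¹) * n⁻¹ := by
    intro h; group
  refine ⟨fun h => ?_, fun h hh => ?_⟩
  · rw [e, ← g.1, ← g'.1]
  · rw [e, ← g.2 _ ((g'.1 h).mp hh), ← g'.2 h hh]

/-- On the quotient `P / P_x`, cyclic of order `p`, a permutation `n` acts as a power. -/
theorem exists_pow [Finite α] (hp : p.Prime) (S : Setup p P F) {x : α} (hx : x ∉ F)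
    {n : Perm α} (g : Good P n x) : ∃ m : ℕ, ∀ h ∈ P, (n * h * n⁻¹) x = (h ^ m) x := by
  -- an element of `P` moving `x`
  obtain ⟨u, hu, hux⟩ : ∃ u ∈ P, u x ≠ x := by
    by_contra hcon
    push Not at hcon
    have h1 : MulAction.orbit P x = {x} := by
      ext y
      constructor
      · rintro ⟨⟨h, hh⟩, rfl⟩
        exact hcon h hh
      · rintro rfl
        exact mem_orbit_self _
    have h2 := S.orb x hx
    rw [h1, Nat.card_unique] at h2
    exact hp.one_lt.ne h2
  obtain ⟨m, hm⟩ := S.gen hp hx hu hux (n * u * n⁻¹) ((g.1 u).mp hu)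
  refine ⟨m, fun h hh => ?_⟩
  obtain ⟨i, hi⟩ := S.gen hp hx hu hux h hh
  -- `h = v u^i` with `v` fixing `x`
  have hv : (h * (u ^ i)⁻¹) x = x := by
    rw [S.comm hp h hh _ (inv_mem (pow_mem hu i)), Perm.mul_apply, hi, ← Perm.mul_apply]
    simp
  have hvP : h * (u ^ i)⁻¹ ∈ P := mul_mem hh (inv_mem (pow_mem hu i))
  have hv2 := (g.2 _ hvP).mp hv
  have hv2P := (g.1 _).mp hvP
  have e1 : n * h * n⁻¹ = (n * u * n⁻¹) ^ i * (n * (h * (u ^ i)⁻¹) * n⁻¹) := by
    rw [conj_pow]
    have : h = (u ^ i) * (h * (u ^ i)⁻¹) := by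
      rw [S.comm hp h hh _ (inv_mem (pow_mem hu i))]; group
    calc n * h * n⁻¹ = n * ((u ^ i) * (h * (u ^ i)⁻¹)) * n⁻¹ := by rw [← this]
      _ = _ := by group
  rw [e1, Perm.mul_apply, hv2]
  -- powers of `n u n⁻¹` and of `u^m` agree at `x`
  have hw : n * u * n⁻¹ ∈ P := (g.1 u).mp hu
  have hum : u ^ m ∈ P := pow_mem hu m
  have key : ∀ j : ℕ, ∀ a b : Perm α, a ∈ P → b ∈ P → a x = b x → (a ^ j) x = (b ^ j) x := by
    intro j a b ha hb hab
    induction j with
    | zero => simp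
    | succ j ih =>
      rw [pow_succ', pow_succ', Perm.mul_apply, Perm.mul_apply, ih]
      exact S.eq_on_orbit hp ha hb hab (pow_mem hb j)
  rw [key i _ _ hw hum hm, key m h (u ^ i) hh (pow_mem hu i) hi, ← pow_mul, ← pow_mul, mul_comm]

/-- Commutators of elements normalizing `P` and `P_x` centralize `P` modulo `P_x`. -/
theorem commutator_fix [Finite α] (hp : p.Prime) (S : Setup p P F) {x : α} (hx : x ∉ F)
    {n n' : Perm α} (g : Good P n x) (g' : Good P n' x) (h : Perm α) (hh : h ∈ P) :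
    ((n * n' * n⁻¹ * n'⁻¹) * h * (n * n' * n⁻¹ * n'⁻¹)⁻¹) x = h x := by
  obtain ⟨m, hm⟩ := S.exists_pow hp hx g
  obtain ⟨m', hm'⟩ := S.exists_pow hp hx g'
  have key : ∀ j : ℕ, ∀ a b : Perm α, a ∈ P → b ∈ P → a x = b x → (a ^ j) x = (b ^ j) x := by
    intro j a b ha hb hab
    induction j with
    | zero => simp
    | succ j ih =>
      rw [pow_succ', pow_succ', Perm.mul_apply, Perm.mul_apply, ih]
      exact S.eq_on_orbit hp ha hb hab (pow_mem hb j)
  -- both `n n'` and `n' n` act as the power `m m'`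
  have h1 : ∀ a ∈ P, ((n * n') * a * (n * n')⁻¹) x = (a ^ (m * m')) x := by
    intro a ha
    have e : (n * n') * a * (n * n')⁻¹ = n * (n' * a * n'⁻¹) * n⁻¹ := by group
    rw [e, hm _ ((g'.1 a).mp ha), key m _ (a ^ m') ((g'.1 a).mp ha) (pow_mem ha m') (hm' a ha),
      ← pow_mul, mul_comm]
  have h2 : ∀ a ∈ P, ((n' * n) * a * (n' * n)⁻¹) x = (a ^ (m * m')) x := by
    intro a ha
    have e : (n' * n) * a * (n' * n)⁻¹ = n' * (n * a * n⁻¹) * n'⁻¹ := by group
    rw [e, hm' _ ((g.1 a).mp ha), key m' _ (a ^ m) ((g.1 a).mp ha) (pow_mem ha m) (hm a ha),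
      ← pow_mul]
  set a : Perm α := (n' * n)⁻¹ * h * (n' * n) with ha
  have haP : a ∈ P := by
    have := (good_inv (good_mul g' g)).1 h
    rw [this, inv_inv] at hh
    exact hh
  have e1 : (n * n' * n⁻¹ * n'⁻¹) * h * (n * n' * n⁻¹ * n'⁻¹)⁻¹ =
      (n * n') * a * (n * n')⁻¹ := by rw [ha]; group
  have e2 : h = (n' * n) * a * (n' * n)⁻¹ := by rw [ha]; group
  rw [e1, h1 a haP, ← h2 a haP, ← e2]

/-- An element normalizing `P` and preserving the orbit of `x` is good at `x`. -/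
theorem good_of_orbit [Finite α] (hp : p.Prime) (S : Setup p P F) {x : α} {n : Perm α}
    (hn : ∀ h, h ∈ P ↔ n * h * n⁻¹ ∈ P) (hx : ∃ h ∈ P, n x = h x) : Good P n x := by
  refine ⟨hn, fun h hh => ?_⟩
  obtain ⟨v, hv, hvx⟩ := hx
  have hc := S.comm hp (n * h * n⁻¹) ((hn h).mp hh) v hv
  have e1 : (n * h * n⁻¹) (n x) = n (h x) := by
    simp [Perm.mul_apply]
  constructor
  · intro h1
    rw [h1, hvx, ← Perm.mul_apply, hc, Perm.mul_apply] at e1
    exact v.injective e1
  · intro h1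
    rw [hvx, ← Perm.mul_apply, hc, Perm.mul_apply, h1, ← hvx] at e1
    exact (n.injective e1).symm

/-- The elements of a `p`-group moving fewer than `2p` points are `p`-cycles. -/
theorem isCycle [Fintype α] [DecidableEq α] (hp : p.Prime) (S : Setup p P F) {h : Perm α}
    (hh : h ∈ P) (h1 : h ≠ 1) (hs : h.support.card < 2 * p) :
    h.IsCycle ∧ h.support.card = p := by
  have ho : orderOf h = p := by
    have := Fact.mk hp
    exact orderOf_eq_prime (S.pow_p hp h hh) h1
  have hc : h.IsCycle := isCycle_of_prime_order (by rw [ho]; exact hp) (by rw [ho]; exact hs)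
  exact ⟨hc, by rw [← hc.orderOf, ho]⟩

/-- An element of `C(P)` preserving the `P`-orbit of `x` has its `p`-th power fixing `x`. -/
theorem pow_fix [Finite α] (hp : p.Prime) (S : Setup p P F) {x : α} {g : Perm α}
    (hg : ∀ h ∈ P, g * h = h * g) (hx : ∃ h ∈ P, g x = h x) : (g ^ p) x = x := by
  obtain ⟨h, hh, hgx⟩ := hx
  have key : ∀ j : ℕ, (g ^ j) x = (h ^ j) x := by
    intro j
    induction j with
    | zero => simp
    | succ j ih =>
      rw [pow_succ', Perm.mul_apply, ih, ← Perm.mul_apply, hg _ (pow_mem hh j), Perm.mul_apply,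
        hgx, ← Perm.mul_apply, ← pow_succ]
  rw [key, S.pow_p hp h hh]; rfl

end Setup

end Cfsg.Agent.H544.MillerB
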