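import Cfsg.Agent.H544.MillerA
import Cfsg.Agent.H544.MillerB
import Cfsg.Agent.S0711
import Cfsg.Agent.S0713

/-!
# Lemmas for Miller's bound on transitivity (degree `kp + r`)

Part C: Sylow `p`-subgroups of a pointwise stabilizer, Witt's argument, and the case `p ≥ 5`.
-/

set_option autoImplicit false

namespace Cfsg.Agent.H544.MillerC

open Equiv Equiv.Perm MulAction Cfsg.Agent.H544.MillerB
open scoped Pointwise

variable {α : Type*} [Fintype α] [DecidableEq α]

/-- Existence of elements of a multiply transitive group with prescribed values. -/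
theorem exists_elem {G : Subgroup (Perm α)} {t : ℕ} (hG : IsMultiplyPretransitive G α t)
    (x y : Fin t ↪ α) : ∃ g ∈ G, ∀ i, g (x i) = y i := by
  obtain ⟨g, hg⟩ := hG.exists_smul_eq x y
  refine ⟨g.1, g.2, fun i => ?_⟩
  have := DFunLike.congr_fun hg i
  exact this

theorem mono {G : Subgroup (Perm α)} {s t : ℕ} (hst : s ≤ t) (ht : t ≤ Fintype.card α)
    (hG : IsMultiplyPretransitive G α t) : IsMultiplyPretransitive G α s :=
  isMultiplyPretransitive_of_le hst (by rw [Nat.card_eq_fintype_card]; exact ht)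

/-- The pointwise stabilizer of a set, inside a permutation group. -/
def fixing (G : Subgroup (Perm α)) (F : Set α) : Subgroup (Perm α) where
  carrier := {g | g ∈ G ∧ ∀ x ∈ F, g x = x}
  mul_mem' := by
    rintro a b ⟨ha, ha'⟩ ⟨hb, hb'⟩
    refine ⟨mul_mem ha hb, fun x hx => ?_⟩
    rw [Perm.mul_apply, hb' x hx, ha' x hx]
  one_mem' := ⟨one_mem _, fun x _ => rfl⟩
  inv_mem' := by
    rintro a ⟨ha, ha'⟩
    refine ⟨inv_mem ha, fun x hx => ?_⟩
    rw [Perm.inv_eq_iff_eq, ha' x hx]

theorem mem_fixing {G : Subgroup (Perm α)} {F : Set α} {g : Perm α} :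
    g ∈ fixing G F ↔ g ∈ G ∧ ∀ x ∈ F, g x = x := Iff.rfl

/-- The data produced by a Sylow `p`-subgroup of the stabilizer of `r` points. -/
theorem exists_setup (G : Subgroup (Perm α)) {k p r : ℕ} (hp : p.Prime)
    (hn : Fintype.card α = k * p + r) (hk : 1 ≤ k) (hpk : k < p)
    (hG : IsMultiplyPretransitive G α (r + 1)) (x0 : Fin r ↪ α) :
    ∃ P : Subgroup (Perm α), P ≤ G ∧ Setup p P (Set.range x0) ∧
      ∀ σ : Perm (Fin r), ∃ n ∈ G, (∀ h, h ∈ P ↔ n * h * n⁻¹ ∈ P) ∧
        ∀ i, n (x0 i) = x0 (σ i) := by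
  have := Fact.mk hp
  set F : Set α := Set.range x0 with hF
  set H : Subgroup (Perm α) := fixing G F with hH
  -- `H` is transitive on the complement of `F`
  have htr : ∀ a b, a ∉ F → b ∉ F → ∃ h ∈ H, h a = b := by
    intro a b ha hb
    obtain ⟨g, hg, hgx⟩ := exists_elem hG (Fin.Embedding.cons x0 ha) (Fin.Embedding.cons x0 hb)
    refine ⟨g, ⟨hg, ?_⟩, ?_⟩
    · rintro _ ⟨i, rfl⟩
      have := hgx i.succ
      simpa [Fin.Embedding.cons] using this
    · have := hgx 0
      simpa [Fin.Embedding.cons] using this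
  have hFc : Set.ncard Fᶜ = k * p := by
    have h1 : F.ncard = r := by
      rw [hF, ← Set.image_univ, Set.ncard_image_of_injective _ x0.injective, Set.ncard_univ,
        Nat.card_fin]
    have h2 := Set.ncard_add_ncard_compl F
    rw [h1, Nat.card_eq_fintype_card, hn] at h2
    omega
  let Q : Sylow p H := default
  set P : Subgroup (Perm α) := (Q : Subgroup H).map H.subtype with hP
  have hPH : P ≤ H := Subgroup.map_subtype_le _
  have hcardP : Nat.card P = Nat.card (Q : Subgroup H) :=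
    Nat.card_congr ((Q : Subgroup H).equivMapOfInjective _ H.subtype_injective).toEquiv.symm
  -- `P` has no fixed point outside `F`
  have hmove : ∀ x, x ∉ F → ∃ h ∈ P, h x ≠ x := by
    intro x hx
    by_contra hcon
    push Not at hcon
    -- the stabilizer of `x` in `H` has index `k p`
    have h1 : MulAction.orbit H x = Fᶜ := by
      ext y
      constructor
      · rintro ⟨⟨h, hh⟩, rfl⟩
        intro hy
        apply hx
        have h2 : h (h x) = h x := hh.2 _ hy
        have h3 : h x = x := h.injective h2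
        rw [← h3]; exact hy
      · intro hy
        obtain ⟨h, hh, hxy⟩ := htr x y hx hy
        exact ⟨⟨h, hh⟩, hxy⟩
    have h2 : (stabilizer H x).index = k * p := by
      rw [index_stabilizer, h1, hFc]
    have h3 : (Q : Subgroup H) ≤ stabilizer H x := by
      intro q hq
      exact hcon q.1 ⟨q, hq, rfl⟩
    have h4 : (stabilizer H x).index ∣ (Q : Subgroup H).index := Subgroup.index_dvd_of_le h3
    rw [h2] at h4
    exact Q.not_dvd_index (dvd_trans (Dvd.intro_left k rfl) h4)
  have hpg : IsPGroup p P := Q.isPGroup'.map _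
  have hsetup : Setup p P F := by
    refine ⟨fun x hx h hh => (hPH hh).2 x hx, ?_, hpg⟩
    intro x hx
    obtain ⟨m, hm⟩ := hpg.card_orbit x
    have h1 : Nat.card (MulAction.orbit P x) ≤ k * p := by
      rw [← hFc, Nat.card_coe_set_eq]
      apply Set.ncard_le_ncard _ (Set.toFinite _)
      rintro _ ⟨⟨h, hh⟩, rfl⟩ hy
      apply hx
      have h2 : h (h x) = h x := (hPH hh).2 _ hy
      have h3 : h x = x := h.injective h2
      rw [← h3]; exact hy
    have h2 : Nat.card (MulAction.orbit P x) < p ^ 2 := by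
      refine lt_of_le_of_lt h1 ?_
      rw [pow_two]
      exact Nat.mul_lt_mul_of_pos_right hpk hp.pos
    rw [hm] at h2
    have h3 : m < 2 := (Nat.pow_lt_pow_iff_right hp.one_lt).mp h2
    have h4 : m ≠ 0 := by
      rintro rfl
      obtain ⟨h, hh, hhx⟩ := hmove x hx
      rw [pow_zero, Nat.card_eq_one_iff_unique] at hm
      obtain ⟨hs, _⟩ := hm
      have h5 : (⟨h x, ⟨⟨h, hh⟩, rfl⟩⟩ : MulAction.orbit P x) = ⟨x, mem_orbit_self x⟩ :=
        Subsingleton.elim _ _
      exact hhx (congrArg Subtype.val h5)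
    have h5 : m = 1 := by omega
    rw [hm, h5, pow_one]
  refine ⟨P, fun h hh => (hPH hh).1, hsetup, ?_⟩
  intro σ
  -- Witt's argument
  have hG' : IsMultiplyPretransitive G α r := mono (Nat.le_succ r) (by
    have : 1 ≤ k * p := Nat.mul_pos hk hp.pos
    omega) hG
  obtain ⟨g, hg, hgx⟩ := exists_elem hG' x0 (σ.toEmbedding.trans x0)
  have hgx' : ∀ i, g (x0 i) = x0 (σ i) := hgx
  have hgF : ∀ x, x ∈ F ↔ g x ∈ F := by
    intro x
    constructor
    · rintro ⟨i, rfl⟩
      exact ⟨σ i, (hgx' i).symm⟩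
    · rintro ⟨i, hi⟩
      refine ⟨σ.symm i, ?_⟩
      apply g.injective
      rw [hgx', Equiv.apply_symm_apply, hi]
  have hnormH : ∀ h, h ∈ H → g * h * g⁻¹ ∈ H := by
    rintro h ⟨hh, hh'⟩
    refine ⟨mul_mem (mul_mem hg hh) (inv_mem hg), fun x hx => ?_⟩
    have h1 : g⁻¹ x ∈ F := by rw [hgF]; simpa using hx
    rw [Perm.mul_apply, Perm.mul_apply, hh' _ h1]; simp
  have hnormH' : ∀ h, h ∈ H → g⁻¹ * h * g ∈ H := by
    rintro h ⟨hh, hh'⟩
    refine ⟨mul_mem (mul_mem (inv_mem hg) hh) hg, fun x hx => ?_⟩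
    have h1 : g x ∈ F := by rw [← hgF]; exact hx
    rw [Perm.mul_apply, Perm.mul_apply, hh' _ h1]; simp
  let c : MulAut H :=
    { toFun := fun h => ⟨g * h.1 * g⁻¹, hnormH _ h.2⟩
      invFun := fun h => ⟨g⁻¹ * h.1 * g, hnormH' _ h.2⟩
      left_inv := fun h => Subtype.ext (by simp [mul_assoc])
      right_inv := fun h => Subtype.ext (by simp [mul_assoc])
      map_mul' := fun a b => Subtype.ext (by simp [mul_assoc]) }
  -- the image of `Q` under `c` is a Sylow subgroup of `H`
  have hcardc : Nat.card ((Q : Subgroup H).map c.toMonoidHom) = Nat.card (Q : Subgroup H) :=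
    Nat.card_congr ((Q : Subgroup H).equivMapOfInjective _ c.injective).toEquiv.symm
  let Q' : Sylow p H := Sylow.ofCard ((Q : Subgroup H).map c.toMonoidHom)
    (by rw [hcardc]; exact Q.card_eq_multiplicity)
  obtain ⟨y, hy⟩ := MulAction.exists_smul_eq H Q' Q
  have hyQ : ∀ q : H, q ∈ (Q : Subgroup H) ↔ y * c q * y⁻¹ ∈ (Q : Subgroup H) := by
    intro q
    have h1 : y * c q * y⁻¹ ∈ (Q : Subgroup H) ↔ y * c q * y⁻¹ ∈ ((y • Q' : Sylow p H) : Subgroup H) := by
      rw [hy]
    rw [h1, Sylow.coe_subgroup_smul, Subgroup.mem_pointwise_smul_iff_inv_smul_mem]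
    have h2 : (MulAut.conj y)⁻¹ • (y * c q * y⁻¹) = c q := by
      rw [← map_inv]
      show y⁻¹ * (y * c q * y⁻¹) * y⁻¹⁻¹ = c q
      group
    rw [h2]
    constructor
    · intro hq; exact ⟨q, hq, rfl⟩
    · rintro ⟨q', hq', h3⟩
      have : q' = q := c.injective h3
      rw [← this]; exact hq'
  refine ⟨(y : Perm α) * g, mul_mem y.2.1 hg, ?_, ?_⟩
  · intro h
    constructor
    · rintro ⟨q, hq, rfl⟩
      refine ⟨y * c q * y⁻¹, (hyQ q).mp hq, ?_⟩
      show (y : Perm α) * (g * q * g⁻¹) * (y : Perm α)⁻¹ = _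
      simp [mul_assoc]
    · rintro ⟨q, hq, hqh⟩
      have h1 : y * c (c.symm (y⁻¹ * q * y)) * y⁻¹ = q := by
        rw [MulEquiv.apply_symm_apply]; group
      refine ⟨c.symm (y⁻¹ * q * y), ?_, ?_⟩
      · refine (hyQ _).mpr ?_
        rw [h1]; exact hq
      · show g⁻¹ * ((y : Perm α)⁻¹ * q * y) * g = h
        have h2 : (q : Perm α) = (y : Perm α) * g * h * ((y : Perm α) * g)⁻¹ := hqh
        rw [h2]; group
  · intro i
    rw [Perm.mul_apply, hgx']
    exact y.2.2 _ ⟨σ i, rfl⟩

end Cfsg.Agent.H544.MillerC
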